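import Mathlib
import Cfsg.Agent.H63.BG11Defs

set_option autoImplicit false

/-!
# Bender–Glauberman §11/§12: statements of 11.4 (σ-uniqueness), 11.7, Lemma 12.3 and 10.2(e)
as `Prop`s (helper92)
-/

namespace Cfsg.Agent.H92.BG12

open Cfsg Subgroup Cfsg.Agent.H58.BG10 Cfsg.Agent.H63.BG11

universe u

/-- B&G 11.4 (σ-uniqueness): under Hypothesis 11.1 for `(M, A, A₀, p)`, a maximal subgroup
`H ≥ A` with `q ∈ σ(H)` that contains a nontrivial `q`-subgroup of `M_σ` equals `M`. -/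
def StExcSigUniq (G : Type u) [Group G] : Prop :=
  ∀ (M A A₀ : Subgroup G) (p : ℕ) [Fact p.Prime], Exc M A A₀ p →
    ∀ H : Subgroup G, IsCoatom H → A ≤ H → ∀ (q : ℕ) [Fact q.Prime], q ∈ sigma H →
    ∀ D : Subgroup G, D ≤ H → D ≤ sigmaCore M → IsPGroup q D → D ≠ ⊥ → H = M

/-- B&G 11.7: under Hypothesis 11.1, `M` normalizes `M_σ A`. -/
def StExcNormal (G : Type u) [Group G] : Prop :=
  ∀ (M A A₀ : Subgroup G) (p : ℕ) [Fact p.Prime], Exc M A A₀ p →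
    M ≤ normalizer ((sigmaCore M ⊔ A : Subgroup G) : Set G)

/-- B&G Lemma 12.3: `M ≠ H` maximal, `A ≤ M` elementary abelian of order `p²`, `A₀ ≤ A` of
order `p` with `N_G(A₀) ≤ H`.  Then `A` centralizes `M_σ ∩ H` if `p ∉ σ(M)` and `M_α ∩ H` if
`p ∉ α(M)`. -/
def St123 (G : Type u) [Group G] : Prop :=
  ∀ (M H A A₀ : Subgroup G) (p : ℕ) [Fact p.Prime], IsCoatom M → IsCoatom H → H ≠ M →
    A ≤ M → IsElementaryAbelian p A → Nat.card A = p ^ 2 → A₀ ≤ A → Nat.card A₀ = p →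
    normalizer (A₀ : Set G) ≤ H →
    (p ∉ sigma M → sigmaCore M ⊓ H ≤ centralizer (A : Set G)) ∧
    (p ∉ alpha M → alphaCore M ⊓ H ≤ centralizer (A : Set G))

/-- B&G 10.2(e): `M_σ ≠ 1` for every maximal subgroup `M`. -/
def StSigNe (G : Type u) [Group G] : Prop :=
  ∀ M : Subgroup G, IsCoatom M → sigmaCore M ≠ ⊥

end Cfsg.Agent.H92.BG12
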