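import Mathlib
import Cfsg.Agent.H92.BG12Defs
import Cfsg.Agent.H58.BG10FG
import Cfsg.Agent.H76.BG10x
import Cfsg.Agent.H13.Coprime
import Cfsg.Agent.H63.Sig
import Cfsg.Agent.H14.BG10RK2
import Cfsg.Agent.Lib.Helper30.CoprimeIface
import Cfsg.Agent.Lib.Helper30.PiCore
import Cfsg.Agent.H31.BG8b
import Cfsg.Agent.H32.BG11X

set_option autoImplicit false
set_option linter.style.haveILetI false

/-!
# Bender–Glauberman Lemma 12.3 (helper92)

`M ≠ H` maximal, `A ≤ M` elementary abelian of order `p²`, `A₀ ≤ A` of order `p` with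
`N_G(A₀) ≤ H`.  Then `A` centralizes every `A`-invariant `q`-subgroup of `M ∩ H` for
`q ∈ σ(M)`, `q ≠ p`.
-/

namespace Cfsg.Agent.H92.BG12

open Cfsg Subgroup Cfsg.Agent.H58.BG10 Cfsg.Agent.H63.BG11
open scoped Pointwise

universe u

variable {G : Type u} [Group G]

/-- If `π(M)`-core is a Hall `π`-subgroup of `M`, it contains every `q`-subgroup of `M`,
`q ∈ π`. -/
theorem le_piCoreOf_of_hall [Finite G] {π : Set ℕ} {M : Subgroup G}
    (hH : IsPiHallOf π (piCoreOf π M) M) {q : ℕ} [Fact q.Prime] (hq : q ∈ π) {Y : Subgroup G}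
    (hY : IsPGroup q Y) (hYM : Y ≤ M) : Y ≤ piCoreOf π M := by
  have h1 : ¬ q ∣ (piCoreOf π M).relIndex M := hH.2.2 q Fact.out hq
  have h2 : (piCoreOf π M).relIndex M = (piCore π ↥M).index :=
    Cfsg.Agent.H76.BG10.relIndex_map_subtype' M _
  have h3 : Y.subgroupOf M ≤ piCore π ↥M :=
    Cfsg.Agent.H14.BG10.le_of_index_coprime _ _ (hY.comap_subtype) (by
      rw [← h2]
      exact (Nat.Coprime.symm ((Nat.Prime.coprime_iff_not_dvd Fact.out).mpr h1)))
  intro y hy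
  exact Subgroup.mem_map.mpr ⟨⟨y, hYM hy⟩, h3 (Subgroup.mem_subgroupOf.mpr hy), rfl⟩

theorem le_sigmaCore_of_mem [Finite G] (h50 : St1350 G) {M : Subgroup G} (hM : IsCoatom M)
    {q : ℕ} [Fact q.Prime] (hq : q ∈ sigma M) {Y : Subgroup G} (hY : IsPGroup q Y)
    (hYM : Y ≤ M) : Y ≤ sigmaCore M :=
  le_piCoreOf_of_hall (h50 M hM).1 hq hY hYM

theorem le_alphaCore_of_mem [Finite G] (h05 : St1405 G) {M : Subgroup G} (hM : IsCoatom M)
    {q : ℕ} [Fact q.Prime] (hq : q ∈ alpha M) {Y : Subgroup G} (hY : IsPGroup q Y)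
    (hYM : Y ≤ M) : Y ≤ alphaCore M :=
  le_piCoreOf_of_hall (h05 M hM).1 hq hY hYM

/-- A nontrivial element of `q`-power order in `O_π(M)` forces `q ∈ π`. -/
theorem mem_of_mem_piCoreOf [Finite G] {π : Set ℕ} {M : Subgroup G} {q : ℕ} [Fact q.Prime]
    {c : G} (hc : c ∈ piCoreOf π M) (hc1 : c ≠ 1) {j : ℕ} (hcq : c ^ q ^ j = 1) : q ∈ π := by
  have hq : q.Prime := Fact.out
  have h1 : orderOf c ∣ q ^ j := orderOf_dvd_of_pow_eq_one hcq
  obtain ⟨i, -, hi⟩ := (Nat.dvd_prime_pow hq).mp h1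
  have hi0 : i ≠ 0 := by
    rintro rfl
    rw [pow_zero] at hi
    exact hc1 (orderOf_eq_one_iff.mp hi)
  have h2 : q ∣ orderOf c := by
    rw [hi]; exact dvd_pow_self q hi0
  have h3 : orderOf c ∣ Nat.card (piCoreOf π M) := by
    have := orderOf_dvd_natCard (⟨c, hc⟩ : piCoreOf π M)
    rwa [Subgroup.orderOf_mk] at this
  exact Cfsg.Agent.Lib.Helper30.piCoreOf_isPi π M q hq (h2.trans h3)

/-- `x ∈ N·A`, `x^m = 1`, `A` of exponent dividing `k`, `(m, k) = 1` ⇒ `x ∈ N`. -/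
theorem mem_of_mem_sup_of_coprime {N A : Subgroup G} (hAN : A ≤ normalizer (N : Set G)) {x : G}
    (hx : x ∈ N ⊔ A) {m k : ℕ} (hmk : m.Coprime k) (hxm : x ^ m = 1)
    (hA : ∀ b ∈ A, b ^ k = 1) : x ∈ N := by
  have hx' : x ∈ ((N ⊔ A : Subgroup G) : Set G) := hx
  rw [Subgroup.coe_mul_of_right_le_normalizer_left N A hAN] at hx'
  obtain ⟨n, hn, b, hb, rfl⟩ := Set.mem_mul.mp hx'
  suffices hbN : b ∈ N from N.mul_mem hn hbN
  have hnK : n ∈ normalizer (N : Set G) := Subgroup.le_normalizer hn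
  have hbK : b ∈ normalizer (N : Set G) := hAN hb
  haveI : (N.subgroupOf (normalizer (N : Set G))).Normal := Subgroup.normal_in_normalizer
  set φ := QuotientGroup.mk' (N.subgroupOf (normalizer (N : Set G))) with hφ
  have h1 : φ (⟨n, hnK⟩ * ⟨b, hbK⟩) = φ ⟨b, hbK⟩ := by
    rw [map_mul]
    have : φ ⟨n, hnK⟩ = 1 := by
      rw [hφ, QuotientGroup.mk'_apply, QuotientGroup.eq_one_iff]
      exact Subgroup.mem_subgroupOf.mpr hn
    rw [this, one_mul]
  have h2 : (φ ⟨b, hbK⟩) ^ m = 1 := by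
    rw [← h1, ← map_pow]
    have : (⟨n, hnK⟩ * ⟨b, hbK⟩ : normalizer (N : Set G)) ^ m = 1 := by
      apply Subtype.ext
      simpa using hxm
    rw [this, map_one]
  have h3 : (φ ⟨b, hbK⟩) ^ k = 1 := by
    rw [← map_pow]
    have : (⟨b, hbK⟩ : normalizer (N : Set G)) ^ k = 1 := by
      apply Subtype.ext
      simpa using hA b hb
    rw [this, map_one]
  have h4 : φ ⟨b, hbK⟩ = 1 := by
    have := pow_gcd_eq_one.mpr ⟨h2, h3⟩
    rwa [Nat.Coprime.gcd_eq_one hmk, pow_one] at this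
  rw [hφ, QuotientGroup.mk'_apply, QuotientGroup.eq_one_iff] at h4
  exact Subgroup.mem_subgroupOf.mp h4

/-- A maximal subgroup `H₁` with `q ∈ α(H₁)` and a maximal subgroup `H₂` with `q ∈ σ(H₂)` are
conjugate. -/
theorem conj_of_alpha_sigma [Finite G] (hG : IsMinSimpleOddOrder G) (h03 : St1403 G)
    {H₁ H₂ : Subgroup G} (h₁ : IsCoatom H₁) (h₂ : IsCoatom H₂) {q : ℕ} (hq₁ : q ∈ alpha H₁)
    (hq₂ : q ∈ sigma H₂) : ∃ g : G, H₁ = MulAut.conj g • H₂ := by
  have hq : q.Prime := hq₁.1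
  haveI : Fact q.Prime := ⟨hq⟩
  obtain ⟨S₁⟩ : Nonempty (Sylow q H₁) := inferInstance
  have hN₁ := normalizer_sylow_le_of_rank hG h03 h₁ hq₁.2 S₁
  obtain ⟨T₁, hT₁⟩ := Cfsg.Agent.H31.BG8.sylow_of_normalizer_le S₁ hN₁
  have hT₁H : (T₁ : Subgroup G) ≤ H₁ := by
    rw [hT₁]; exact Subgroup.map_subtype_le _
  have hr : ¬ PRankLE q 2 ↥(T₁ : Subgroup G) := by
    rw [hT₁]; exact not_pRankLE_sylow S₁ hq₁.2
  have htop : (T₁ : Subgroup G) ≠ ⊤ := fun h => h₁.1 (top_le_iff.mp (h ▸ hT₁H))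
  have hU : InUniqueMaximal (T₁ : Subgroup G) := h03 _ htop
    (not_rankLE_of_not_pRankLE hq (not_pRankLE_mono hq (by norm_num) hr))
    (Or.inl (not_rankLE_of_not_pRankLE hq hr))
  obtain ⟨-, -, S₂, hN₂⟩ := hq₂
  obtain ⟨T₂, hT₂⟩ := Cfsg.Agent.H31.BG8.sylow_of_normalizer_le S₂ hN₂
  have hT₂H : (T₂ : Subgroup G) ≤ H₂ := by
    rw [hT₂]; exact Subgroup.map_subtype_le _
  obtain ⟨g, hg⟩ := MulAction.exists_smul_eq G T₂ T₁
  refine ⟨g, ?_⟩
  have hle : (T₁ : Subgroup G) ≤ MulAut.conj g • H₂ := by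
    rw [← hg, Sylow.coe_subgroup_smul]
    exact Cfsg.Agent.H63.Sig.cj_mono g hT₂H
  exact (eq_of_inUniqueMaximal hU h₁ hT₁H (Cfsg.Agent.H63.Sig.isCoatom_cj g h₂) hle).symm

/-- In `H_σ`, elements of coprime orders commute modulo `H_α`. -/
theorem comm_mem_alphaCore [Finite G] (h05 : St1405 G) (hSC : StSigComm G) {H : Subgroup G}
    (hH : IsCoatom H) {y a : G} (hy : y ∈ sigmaCore H) (ha : a ∈ sigmaCore H)
    (hcop : (orderOf y).Coprime (orderOf a)) : y * a * y⁻¹ * a⁻¹ ∈ alphaCore H := by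
  obtain ⟨y', hy', rfl⟩ := Subgroup.mem_map.mp hy
  obtain ⟨a', ha', rfl⟩ := Subgroup.mem_map.mp ha
  have hyc : y' ∈ commutator ↥H := Cfsg.Agent.H76.BG10.piCore_sigma_le_commutator hSC H hH hy'
  have hac : a' ∈ commutator ↥H := Cfsg.Agent.H76.BG10.piCore_sigma_le_commutator hSC H hH ha'
  obtain ⟨-, -, -, -, hnil⟩ := h05 H hH
  set φ := QuotientGroup.mk' (piCore (alpha H) ↥H) with hφ
  have h1 : φ y' ∈ (commutator ↥H).map φ := Subgroup.mem_map_of_mem φ hyc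
  have h2 : φ a' ∈ (commutator ↥H).map φ := Subgroup.mem_map_of_mem φ hac
  have ho1 : orderOf (φ y') ∣ orderOf (y' : G) := by
    rw [Subgroup.orderOf_coe]; exact orderOf_map_dvd φ y'
  have ho2 : orderOf (φ a') ∣ orderOf (a' : G) := by
    rw [Subgroup.orderOf_coe]; exact orderOf_map_dvd φ a'
  have hcop' : (orderOf (φ y')).Coprime (orderOf (φ a')) :=
    Nat.Coprime.coprime_dvd_left ho1 (Nat.Coprime.coprime_dvd_right ho2 hcop)
  have h3 : φ y' * φ a' = φ a' * φ y' :=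
    Cfsg.Agent.H13.coprime_commute_of_mem _ hnil h1 h2 hcop'
  have h4 : φ (y' * a' * y'⁻¹ * a'⁻¹) = 1 := by
    rw [map_mul, map_mul, map_mul, map_inv, map_inv, h3]
    group
  rw [hφ, QuotientGroup.mk'_apply, QuotientGroup.eq_one_iff] at h4
  exact Subgroup.mem_map.mpr ⟨_, h4, by simp⟩

/-- B&G Lemma 12.3, main form: `A` centralizes every `A`-invariant `q`-subgroup of `M ∩ H`,
`q ∈ σ(M)`, `q ≠ p`. -/
theorem key123 [Finite G] (hG : IsMinSimpleOddOrder G) (h03 : St1403 G) (h04 : St1404 G)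
    (h05 : St1405 G) (h50 : St1350 G) (hSC : StSigComm G) (hU : StExcSigUniq G)
    (hN : StExcNormal G) {M H A A₀ : Subgroup G} {p : ℕ} [Fact p.Prime] (hM : IsCoatom M)
    (hH : IsCoatom H) (hne : H ≠ M) (hAM : A ≤ M) (hel : IsElementaryAbelian p A)
    (hcard : Nat.card A = p ^ 2) (hA₀ : A₀ ≤ A) (hcard₀ : Nat.card A₀ = p)
    (hN₀ : normalizer (A₀ : Set G) ≤ H) {q : ℕ} [Fact q.Prime] (hqp : q ≠ p)
    (hqM : q ∈ sigma M) {Yq : Subgroup G} (hYq : IsPGroup q Yq) (hYM : Yq ≤ M) (hYH : Yq ≤ H)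
    (hAY : A ≤ normalizer (Yq : Set G)) : Yq ≤ centralizer (A : Set G) := by
  have hp : p.Prime := Fact.out
  have hq : q.Prime := Fact.out
  have hAp : IsPGroup p A := IsPGroup.of_card hcard
  have hAcomm : ∀ a ∈ A, ∀ b ∈ A, a * b = b * a := fun a ha b hb =>
    congrArg Subtype.val (hel.1.is_comm.comm ⟨a, ha⟩ ⟨b, hb⟩)
  -- `C_G(A₀) ≤ H`
  have hC₀ : centralizer (A₀ : Set G) ≤ H :=
    (Subgroup.centralizer_le_normalizer (A₀ : Set G)).trans hN₀
  have hAH : A ≤ H := fun a ha => hC₀ (fun b hb => hAcomm b (hA₀ hb) a ha)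
  have hCA : centralizer (A : Set G) ≤ H := (Subgroup.centralizer_le hA₀).trans hC₀
  have hA1 : A ≠ ⊥ := by
    intro h
    rw [h, Subgroup.card_bot] at hcard
    have := Nat.one_lt_pow (n := 2) two_ne_zero hp.one_lt
    omega
  by_contra hnc
  obtain ⟨y, hy, hyc⟩ := SetLike.not_le_iff_exists.mp hnc
  rw [Subgroup.mem_centralizer_iff] at hyc
  push Not at hyc
  obtain ⟨a, ha, hay⟩ := hyc
  have ha' : a ∈ A := ha
  set c := y * a * y⁻¹ * a⁻¹ with hc
  have hc1 : c ≠ 1 := by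
    intro h
    apply hay
    have : y * a = a * y := by
      calc y * a = (y * a * y⁻¹ * a⁻¹) * (a * y) := by group
        _ = a * y := by rw [← hc, h, one_mul]
    exact this.symm
  have hcY : c ∈ Yq := by
    have h1 : a * y⁻¹ * a⁻¹ ∈ Yq :=
      (Subgroup.mem_normalizer_iff.mp (hAY ha') y⁻¹).mp (inv_mem hy)
    have : c = y * (a * y⁻¹ * a⁻¹) := by rw [hc]; group
    rw [this]
    exact mul_mem hy h1
  obtain ⟨j, hj⟩ := (IsPGroup.iff_orderOf.mp hYq) ⟨c, hcY⟩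
  have hcq : c ^ q ^ j = 1 := by
    have := pow_orderOf_eq_one (⟨c, hcY⟩ : Yq)
    rw [hj] at this
    simpa using congrArg Subtype.val this
  -- Step 0: `H` normalizes `H_σ A`
  have hnorm : H ≤ normalizer ((sigmaCore H ⊔ A : Subgroup G) : Set G) := by
    by_cases hpH : p ∈ sigma H
    · have : A ≤ sigmaCore H := le_sigmaCore_of_mem h50 hH hpH hAp hAH
      rw [sup_eq_left.mpr this]
      exact Cfsg.Agent.Lib.Helper30.le_normalizer_piCoreOf (sigma H) H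
    · exact hN H A A₀ p ⟨hH, hpH, hAH, hel, hcard, hA₀, hcard₀, hN₀⟩
  have hcL : c ∈ sigmaCore H ⊔ A := by
    have h1 : y * a * y⁻¹ ∈ sigmaCore H ⊔ A :=
      (Subgroup.mem_normalizer_iff.mp (hnorm (hYH hy)) a).mp
        ((le_sup_right : A ≤ sigmaCore H ⊔ A) ha')
    exact mul_mem h1 (inv_mem ((le_sup_right : A ≤ sigmaCore H ⊔ A) ha'))
  have hAnσ : A ≤ normalizer (sigmaCore H : Set G) :=
    hAH.trans (Cfsg.Agent.Lib.Helper30.le_normalizer_piCoreOf (sigma H) H)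
  have hcσ : c ∈ sigmaCore H :=
    mem_of_mem_sup_of_coprime hAnσ hcL
      (Nat.Coprime.pow_left j ((Nat.coprime_primes hq hp).mpr hqp)) hcq hel.2
  have hqH : q ∈ sigma H := mem_of_mem_piCoreOf (π := sigma H) (M := H) hcσ hc1 hcq
  by_cases hpH : p ∈ sigma H
  · -- Case 1
    have hyσ : y ∈ sigmaCore H := le_sigmaCore_of_mem h50 hH hqH hYq hYH hy
    have haσ : a ∈ sigmaCore H := le_sigmaCore_of_mem h50 hH hpH hAp hAH ha'
    have hcop : (orderOf y).Coprime (orderOf a) := by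
      obtain ⟨i, hi⟩ := (IsPGroup.iff_orderOf.mp hYq) ⟨y, hy⟩
      obtain ⟨k, hk⟩ := (IsPGroup.iff_orderOf.mp hAp) ⟨a, ha'⟩
      rw [Subgroup.orderOf_mk] at hi hk
      rw [hi, hk]
      exact Nat.Coprime.pow _ _ ((Nat.coprime_primes hq hp).mpr hqp)
    have hcα : c ∈ alphaCore H := comm_mem_alphaCore h05 hSC hH hyσ haσ hcop
    have hqα : q ∈ alpha H := mem_of_mem_piCoreOf (π := alpha H) (M := H) hcα hc1 hcq
    obtain ⟨g, hg⟩ := conj_of_alpha_sigma hG h03 hH hM hqα hqM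
    have hAg : A.map (MulAut.conj g).toMonoidHom ≤ H := by
      rw [hg]
      exact Cfsg.Agent.H63.Sig.cj_mono g hAM
    obtain ⟨m, hm, c', hc', hgmc⟩ := (h04 H hH p hpH A hAp hA1 hAH).1 g hAg
    have hgH : g ∈ H := by
      rw [hgmc]; exact mul_mem hm (hCA hc')
    apply hne
    have h1 : MulAut.conj g⁻¹ • H = M := by
      rw [hg]; exact Cfsg.Agent.H63.Sig.cj_inv_cj g M
    rw [← h1]
    exact (Cfsg.Agent.H63.Sig.cj_eq_self_of_mem (inv_mem hgH)).symm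
  · -- Case 2
    have hE : Exc H A A₀ p := ⟨hH, hpH, hAH, hel, hcard, hA₀, hcard₀, hN₀⟩
    have hzM : zpowers c ≤ M := (zpowers_le.mpr hcY).trans hYM
    have hzσ : zpowers c ≤ sigmaCore H := zpowers_le.mpr hcσ
    have hzq : IsPGroup q (zpowers c) := hYq.to_le (zpowers_le.mpr hcY)
    have hz1 : zpowers c ≠ ⊥ := fun h => hc1 (zpowers_eq_bot.mp h)
    exact hne (hU H A A₀ p hE M hM hAM q hqM (zpowers c) hzM hzσ hzq hz1).symm

/-- B&G Lemma 12.3. -/
theorem lem123 [Finite G] (hG : IsMinSimpleOddOrder G) (h03 : St1403 G) (h04 : St1404 G)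
    (h05 : St1405 G) (h50 : St1350 G) (hSC : StSigComm G) (hU : StExcSigUniq G)
    (hN : StExcNormal G) : St123 G := by
  intro M H A A₀ p _ hM hH hne hAM hel hcard hA₀ hcard₀ hN₀
  have hp : p.Prime := Fact.out
  have hAp : IsPGroup p A := IsPGroup.of_card hcard
  have hAcomm : ∀ a ∈ A, ∀ b ∈ A, a * b = b * a := fun a ha b hb =>
    congrArg Subtype.val (hel.1.is_comm.comm ⟨a, ha⟩ ⟨b, hb⟩)
  have hC₀ : centralizer (A₀ : Set G) ≤ H :=
    (Subgroup.centralizer_le_normalizer (A₀ : Set G)).trans hN₀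
  have hAH : A ≤ H := fun a ha => hC₀ (fun b hb => hAcomm b (hA₀ hb) a ha)
  have hAsolv : Group.IsSolvable A :=
    Group.isSolvable_of_comm (fun a b => hel.1.is_comm.comm a b)
  -- general statement for a set of primes `π ⊆ σ(M)` with `p ∉ π`
  have key : ∀ π : Set ℕ, π ⊆ sigma M → p ∉ π →
      piCoreOf π M ⊓ H ≤ centralizer (A : Set G) := by
    intro π hπ hpπ
    set Y := piCoreOf π M ⊓ H with hY
    have hYM : Y ≤ M := inf_le_left.trans (Cfsg.Agent.Lib.Helper30.piCoreOf_le π M)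
    have hYH : Y ≤ H := inf_le_right
    have hAY : A ≤ normalizer (Y : Set G) := by
      intro a ha
      exact Cfsg.Agent.H32.BG11.mem_normalizer_inf
        (Cfsg.Agent.Lib.Helper30.le_normalizer_piCoreOf π M (hAM ha))
        (Subgroup.le_normalizer (hAH ha))
    have hYπ : ∀ r : ℕ, r.Prime → r ∣ Nat.card Y → r ∈ π := fun r hr hrY =>
      Cfsg.Agent.Lib.Helper30.piCoreOf_isPi π M r hr
        (hrY.trans (Subgroup.card_dvd_of_le inf_le_left))
    have hcop : (Nat.card A).Coprime (Nat.card Y) := by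
      rw [hcard]
      apply Nat.Coprime.pow_left
      rw [Nat.Prime.coprime_iff_not_dvd hp]
      exact fun h => hpπ (hYπ p hp h)
    apply Cfsg.Agent.H76.BG10.le_of_sylow_le
    intro q hq hqY
    haveI : Fact q.Prime := ⟨hq⟩
    obtain ⟨P, hP⟩ := Cfsg.Agent.Lib.Helper30.coprime_exists_invariant_sylow A Y hAY hcop
      (Or.inl hAsolv) q
    have hqπ : q ∈ π := hYπ q hq hqY
    refine ⟨(P : Subgroup Y).map Y.subtype, Subgroup.map_subtype_le _, ?_, ?_⟩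
    · exact key123 hG h03 h04 h05 h50 hSC hU hN hM hH hne hAM hel hcard hA₀ hcard₀ hN₀
        (fun h => hpπ (h ▸ hqπ)) (hπ hqπ) (P.isPGroup'.map _)
        ((Subgroup.map_subtype_le _).trans hYM) ((Subgroup.map_subtype_le _).trans hYH) hP
    · rw [Cfsg.Agent.H76.BG10.relIndex_map_subtype']
      exact P.not_dvd_index
  exact ⟨fun hpσ => key (sigma M) subset_rfl hpσ,
    fun hpα => key (alpha M) (fun q hq => alpha_subset_sigma hG h03 hM hq) hpα⟩

end Cfsg.Agent.H92.BG12
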