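import Mathlib
import Cfsg.Agent.H92.BG123

set_option autoImplicit false
set_option linter.style.haveILetI false

/-!
# Bender–Glauberman 11.4 (σ-uniqueness for exceptional maximal subgroups) (helper92;
paper proof by helper63, board post 3822)
-/

namespace Cfsg.Agent.H92.BG12

open Cfsg Subgroup Cfsg.Agent.H58.BG10 Cfsg.Agent.H63.BG11 Cfsg.Agent.H63.Sig
open scoped Pointwise

universe u

variable {G : Type u} [Group G]

theorem normalizer_cj (g : G) (K : Subgroup G) :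
    normalizer ((MulAut.conj g • K : Subgroup G) : Set G) =
      MulAut.conj g • normalizer (K : Set G) := by
  ext x
  rw [mem_cj, Subgroup.mem_normalizer_iff, Subgroup.mem_normalizer_iff]
  constructor
  · intro h k
    have := h (g * k * g⁻¹)
    rw [mem_cj, mem_cj] at this
    have e1 : g⁻¹ * (g * k * g⁻¹) * g = k := by group
    have e2 : g⁻¹ * (x * (g * k * g⁻¹) * x⁻¹) * g = g⁻¹ * x * g * k * (g⁻¹ * x * g)⁻¹ := by group
    rw [e1, e2] at this
    exact this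
  · intro h y
    rw [mem_cj, mem_cj]
    have := h (g⁻¹ * y * g)
    have e2 : g⁻¹ * x * g * (g⁻¹ * y * g) * (g⁻¹ * x * g)⁻¹ = g⁻¹ * (x * y * x⁻¹) * g := by group
    rw [e2] at this
    exact this

/-- Two Sylow `q`-subgroups of `G` inside a nilpotent subgroup coincide. -/
theorem sylow_eq_of_le_nilpotent [Finite G] {q : ℕ} [Fact q.Prime] {N : Subgroup G}
    (hN : Group.IsNilpotent N) (T₁ T₂ : Sylow q G) (h₁ : (T₁ : Subgroup G) ≤ N)
    (h₂ : (T₂ : Subgroup G) ≤ N) : (T₁ : Subgroup G) = T₂ := by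
  have htfae : Group.IsNilpotent N ↔
      ∀ (p : ℕ) (_hp : Fact p.Prime) (P : Sylow p N), (↑P : Subgroup N).Normal :=
    (Group.isNilpotent_of_finite_tfae (G := N)).out 0 3
  have hn : ((T₁.subtype h₁ : Sylow q N) : Subgroup N).Normal := htfae.1 hN q inferInstance _
  have hu := Sylow.unique_of_normal (T₁.subtype h₁) hn
  have heq : T₁.subtype h₁ = T₂.subtype h₂ := Subsingleton.elim _ _
  have h3 : (T₁ : Subgroup G).subgroupOf N = (T₂ : Subgroup G).subgroupOf N := by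
    have := congrArg (fun P : Sylow q N => (P : Subgroup N)) heq
    simpa [Sylow.coe_subtype] using this
  apply le_antisymm
  · intro x hx
    have : (⟨x, h₁ hx⟩ : N) ∈ (T₁ : Subgroup G).subgroupOf N := Subgroup.mem_subgroupOf.mpr hx
    rw [h3] at this
    exact Subgroup.mem_subgroupOf.mp this
  · intro x hx
    have : (⟨x, h₂ hx⟩ : N) ∈ (T₂ : Subgroup G).subgroupOf N := Subgroup.mem_subgroupOf.mpr hx
    rw [← h3] at this
    exact Subgroup.mem_subgroupOf.mp this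

/-- B&G 11.4 (σ-uniqueness). -/
theorem excSigUniq [Finite G] (_hG : IsMinSimpleOddOrder G) (h50 : St1350 G) (h04 : St1404 G)
    (hNilp : StExcNilp G) (hTI : StExcTI G) : StExcSigUniq G := by
  intro M A A₀ p _ hE H hH hAH q _ hqH D hDH hDσ hDq hD1
  have hq : q.Prime := Fact.out
  have hM := hE.coatom
  have hσM : sigmaCore M ≤ M := Cfsg.Agent.Lib.Helper30.piCoreOf_le (sigma M) M
  have hDM : D ≤ M := hDσ.trans hσM
  obtain ⟨d, hd, hd1⟩ : ∃ d ∈ D, d ≠ 1 := by
    by_contra h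
    push Not at h
    exact hD1 ((Subgroup.eq_bot_iff_forall D).mpr h)
  obtain ⟨j, hj⟩ := (IsPGroup.iff_orderOf.mp hDq) ⟨d, hd⟩
  have hdq : d ^ q ^ j = 1 := by
    have := pow_orderOf_eq_one (⟨d, hd⟩ : D)
    rw [hj] at this
    simpa using congrArg Subtype.val this
  have hqM : q ∈ sigma M := mem_of_mem_piCoreOf (π := sigma M) (M := M) (hDσ hd) hd1 hdq
  obtain ⟨-, -, S_M, hNM⟩ := id hqM
  obtain ⟨T_M, hT_M⟩ := Cfsg.Agent.H31.BG8.sylow_of_normalizer_le S_M hNM
  have hT_MM : (T_M : Subgroup G) ≤ M := by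
    rw [hT_M]; exact Subgroup.map_subtype_le _
  obtain ⟨-, -, S_H, hNH⟩ := hqH
  obtain ⟨T_H, hT_H⟩ := Cfsg.Agent.H31.BG8.sylow_of_normalizer_le S_H hNH
  have hT_HH : (T_H : Subgroup G) ≤ H := by
    rw [hT_H]; exact Subgroup.map_subtype_le _
  have hNT_H : normalizer ((T_H : Subgroup G) : Set G) ≤ H := by
    rw [hT_H]; exact hNH
  obtain ⟨a, haH, hDa⟩ := exists_conj_sylow T_H hT_HH (1 : G) (cj_one H).symm hDq hDH
  have hNT' : normalizer ((MulAut.conj a • (T_H : Subgroup G) : Subgroup G) : Set G) ≤ H := by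
    rw [normalizer_cj]
    exact (cj_mono a hNT_H).trans haH.symm.le
  obtain ⟨x, hx⟩ := MulAction.exists_smul_eq G T_M (a • T_H)
  have hx' : MulAut.conj a • (T_H : Subgroup G) = MulAut.conj x • (T_M : Subgroup G) := by
    rw [← Sylow.coe_subgroup_smul, ← Sylow.coe_subgroup_smul, hx]
  have hDx : D ≤ MulAut.conj x • M := hDa.trans (hx' ▸ cj_mono x hT_MM)
  have hDx' : D.map (MulAut.conj x⁻¹).toMonoidHom ≤ M := by
    have := cj_mono x⁻¹ hDx
    rwa [cj_inv_cj] at this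
  obtain ⟨m, hm, c, hc, hxmc⟩ := (h04 M hM q hqM D hDq hD1 hDM).1 x⁻¹ hDx'
  have hxeq : x = c⁻¹ * m⁻¹ := by
    rw [← inv_inv x, hxmc, mul_inv_rev]
  set T₂ : Sylow q G := m⁻¹ • T_M with hT₂def
  have hT₂ : (T₂ : Subgroup G) = MulAut.conj m⁻¹ • (T_M : Subgroup G) :=
    Sylow.coe_subgroup_smul
  have hT₂M : (T₂ : Subgroup G) ≤ M := by
    rw [hT₂]
    have := cj_mono m⁻¹ hT_MM
    rwa [cj_eq_self_of_mem (inv_mem hm)] at this
  have hT₂σ : (T₂ : Subgroup G) ≤ sigmaCore M :=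
    le_sigmaCore_of_mem h50 hM hqM T₂.isPGroup' hT₂M
  have hMT₂ : M ≤ normalizer ((T₂ : Subgroup G) : Set G) := by
    intro n hn
    apply mem_normalizer_of_cj_eq
    have h1 : ((n • T₂ : Sylow q G) : Subgroup G) ≤ sigmaCore M := by
      rw [Sylow.coe_subgroup_smul]
      have hn' : n ∈ normalizer (sigmaCore M : Set G) :=
        Cfsg.Agent.Lib.Helper30.le_normalizer_piCoreOf (sigma M) M hn
      have := cj_mono n hT₂σ
      rwa [cj_eq_self_of_mem_normalizer hn'] at this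
    have := sylow_eq_of_le_nilpotent (hNilp M A A₀ p hE) (n • T₂) T₂ h1 hT₂σ
    rwa [Sylow.coe_subgroup_smul] at this
  have hT'c : MulAut.conj a • (T_H : Subgroup G) = MulAut.conj c⁻¹ • (T₂ : Subgroup G) := by
    rw [hx', hxeq, cj_mul, hT₂]
  have hM₁H : MulAut.conj c⁻¹ • M ≤ H := by
    have h1 : MulAut.conj c⁻¹ • M ≤ MulAut.conj c⁻¹ • normalizer ((T₂ : Subgroup G) : Set G) :=
      cj_mono c⁻¹ hMT₂
    rw [← normalizer_cj, ← hT'c] at h1
    exact h1.trans hNT'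
  have hM₁ : MulAut.conj c⁻¹ • M = H := by
    by_contra hne
    exact hH.1 ((isCoatom_cj c⁻¹ hM).2 H (lt_of_le_of_ne hM₁H hne))
  have hcM : c⁻¹ ∈ M := by
    by_contra hcM
    have hA : A ≤ M.map (MulAut.conj c⁻¹).toMonoidHom := by
      show A ≤ MulAut.conj c⁻¹ • M
      rw [hM₁]; exact hAH
    have hti := hTI M A A₀ p hE c⁻¹ hcM hA
    apply hD1
    rw [eq_bot_iff, ← hti]
    refine le_inf hDσ ?_
    show D ≤ MulAut.conj c⁻¹ • M
    rw [hM₁]; exact hDH
  rw [← hM₁]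
  exact cj_eq_self_of_mem hcM

end Cfsg.Agent.H92.BG12
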