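import Mathlib
import Cfsg.Agent.H29.BG117Defs
import Cfsg.Agent.S1451
import Cfsg.Agent.H76.BG10x
import Cfsg.Agent.Lib.Helper30.Trans

set_option autoImplicit false
set_option linter.style.haveILetI false

/-!
# Bender–Glauberman 10.2(e): `M_σ ≠ 1` for every maximal subgroup `M` (helper92)
-/

namespace Cfsg.Agent.H92.BG12

open Cfsg Subgroup Cfsg.Agent.H58.BG10

universe u

variable {G : Type u} [Group G]

/-- A maximal subgroup of a minimal simple group is nontrivial. -/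
theorem coatom_ne_bot (hG : IsMinSimpleOddOrder G) {M : Subgroup G} (hM : IsCoatom M) :
    M ≠ ⊥ := by
  rintro rfl
  apply hG.2.2.1
  by_cases h : ∀ x : G, x = 1
  · exact ⟨⟨fun a b => by rw [h a, h b]⟩⟩
  · push Not at h
    obtain ⟨x, hx⟩ := h
    have hz : zpowers x = ⊤ :=
      hM.2 (zpowers x) (bot_lt_iff_ne_bot.mpr (fun h' => hx (zpowers_eq_bot.mp h')))
    refine ⟨⟨fun a b => ?_⟩⟩
    have ha : a ∈ zpowers x := hz ▸ mem_top a
    have hb : b ∈ zpowers x := hz ▸ mem_top b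
    obtain ⟨i, rfl⟩ := ha
    obtain ⟨j, rfl⟩ := hb
    exact zpow_mul_comm x i j

/-- B&G 10.2(e). -/
theorem sigNe [Finite G] (hG : IsMinSimpleOddOrder G) (h1405 : St1405 G) (h350 : St1350 G) :
    Cfsg.Agent.H29.BG117.StSigNe G := by
  intro M hM hσ
  obtain ⟨hαHall, -, hασ, -, -⟩ := h1405 M hM
  have hα : alphaCore M = ⊥ := le_bot_iff.mp (hσ ▸ hασ)
  have hMbot := coatom_ne_bot hG hM
  have hcard1 : Nat.card M ≠ 1 := fun h => hMbot (Subgroup.card_eq_one.mp h)
  have hrank : RankLE 2 ↥M := by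
    intro q hq
    by_contra hr
    have h1 : ¬ q ∣ (alphaCore M).relIndex M := hαHall.2.2 q hq ⟨hq, hr⟩
    rw [hα, Subgroup.relIndex_bot_left] at h1
    apply hr
    intro B _ hBp
    have hB1 : Nat.card B = 1 := by
      by_contra hne
      obtain ⟨r, hr', hrB⟩ := Nat.exists_prime_and_dvd hne
      haveI : Fact r.Prime := ⟨hr'⟩
      obtain ⟨x, hx⟩ := exists_prime_orderOf_dvd_card' r hrB
      have h1' : x ^ q = 1 := Subtype.ext (by simpa using hBp x x.2)
      have h2 : r ∣ q := hx ▸ orderOf_dvd_of_pow_eq_one h1'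
      have h3 : r = q := (Nat.prime_dvd_prime_iff_eq hr' hq).mp h2
      exact h1 (h3 ▸ hrB.trans (Subgroup.card_subgroup_dvd_card B))
    rw [hB1]; exact Nat.one_le_pow _ _ hq.pos
  haveI : Group.IsSolvable ↥M := Cfsg.Agent.H76.BG10.solvable_coatom hG hM
  have hodd : Odd (Nat.card ↥M) := Cfsg.Agent.H76.BG10.odd_card_subgroup hG M
  obtain ⟨-, -, hHall⟩ := Cfsg.Agent.S1451.result (G := ↥M) hodd (Or.inl hrank)
  have hne : (Nat.card M).primeFactors.Nonempty := by
    rw [Nat.nonempty_primeFactors]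
    have : 0 < Nat.card M := Nat.card_pos
    omega
  set q := (Nat.card M).primeFactors.max' hne with hqdef
  have hqmem : q ∈ (Nat.card M).primeFactors := Finset.max'_mem _ hne
  have hq : q.Prime := (Nat.mem_primeFactors.mp hqmem).1
  have hqM : q ∣ Nat.card M := (Nat.mem_primeFactors.mp hqmem).2.1
  have hqmax : ∀ r : ℕ, r.Prime → r ∣ Nat.card M → r ≤ q := fun r hr hrM =>
    Finset.le_max' _ r (Nat.mem_primeFactors.mpr ⟨hr, hrM, Nat.card_pos.ne'⟩)
  haveI : Fact q.Prime := ⟨hq⟩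
  obtain ⟨N, hNchar, hN1, hN2⟩ := hHall (q - 1)
  have hNq : ∀ r : ℕ, r.Prime → r ∣ Nat.card N → r = q := by
    intro r hr hrN
    have h1 : q - 1 < r := (hN1 r hr hrN).2
    have h2 : r ≤ q := hqmax r hr (hrN.trans (Subgroup.card_subgroup_dvd_card N))
    omega
  have hNp : IsPGroup q N := by
    have := Nat.eq_prime_pow_of_unique_prime_dvd (Nat.card_pos (α := N)).ne'
      (p := q) (fun {d} hd hdvd => hNq d hd hdvd)
    exact IsPGroup.of_card this
  have hNidx : ¬ q ∣ N.index := hN2 q hq ⟨hq, by have := hq.two_le; omega⟩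
  let P : Sylow q ↥M := hNp.toSylow hNidx
  have hPN : (P : Subgroup ↥M) = N := rfl
  haveI : N.Normal := Subgroup.normal_of_characteristic N
  set Q : Subgroup G := N.map M.subtype with hQ
  have hQM : Q ≤ M := Subgroup.map_subtype_le _
  have hMQ : M ≤ normalizer (Q : Set G) := by
    intro m hm
    rw [Subgroup.mem_normalizer_iff]
    intro x
    constructor
    · rintro ⟨y, hy, rfl⟩
      exact ⟨⟨m, hm⟩ * y * ⟨m, hm⟩⁻¹, ‹N.Normal›.conj_mem y hy ⟨m, hm⟩, rfl⟩
    · rintro ⟨y, hy, hyx⟩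
      refine ⟨⟨m, hm⟩⁻¹ * y * ⟨m, hm⟩, ?_, ?_⟩
      · have := ‹N.Normal›.conj_mem y hy ⟨m, hm⟩⁻¹
        simpa using this
      · have h1 : (y : G) = m * x * m⁻¹ := hyx
        simp only [Subgroup.coe_subtype, Subgroup.coe_mul, Subgroup.coe_inv, h1]
        group
  have hNbot : N ≠ ⊥ := by
    intro h
    apply hNidx
    rw [h, Subgroup.index_bot]
    exact hqM
  have hQbot : Q ≠ ⊥ := by
    intro h
    apply hNbot
    rw [hQ] at h
    exact (Subgroup.map_eq_bot_iff_of_injective N M.subtype_injective).mp h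
  have hQtop : Q ≠ ⊤ := fun h => hM.1 (top_le_iff.mp (h ▸ hQM))
  have hNQtop : normalizer (Q : Set G) ≠ ⊤ :=
    Cfsg.Agent.Lib.Helper30.minSimple_normalizer_ne_top hG hQbot hQtop
  have hNQ : normalizer (Q : Set G) ≤ M := by
    by_contra hnle
    exact hNQtop (hM.2 _ (lt_of_le_of_ne hMQ (fun h => hnle h.symm.le)))
  have hqσ : q ∈ sigma M := ⟨hq, hqM, P, hNQ⟩
  have h3 : ¬ q ∣ (sigmaCore M).relIndex M := (h350 M hM).1.2.2 q hq hqσ
  rw [hσ, Subgroup.relIndex_bot_left] at h3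
  exact h3 hqM

end Cfsg.Agent.H92.BG12
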