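import Mathlib
import Cfsg.Agent.H92.BG124
import Cfsg.Agent.H58.BG10All2
import Cfsg.Agent.H63.BG11Main

set_option autoImplicit false

/-!
# Bender–Glauberman Proposition 12.4 (= S1416): wiring (helper92)

`S1416` from the two statements still in progress elsewhere: B&G 11.7 (`StExcNormal`,
helper29's project BG117) and the core of step (ii) (`StCentSig`, helper37).
-/

namespace Cfsg.Agent.H92.BG12

open Cfsg Subgroup Cfsg.Agent.H58.BG10 Cfsg.Agent.H63.BG11

universe u

variable {G : Type u} [Group G] [Finite G]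

theorem stExcSigUniq (hG : IsMinSimpleOddOrder G) : StExcSigUniq G :=
  excSigUniq hG (st1350 hG) (st1404 hG) (stExcNilp hG) (stExcTI hG)

theorem st123_of (hG : IsMinSimpleOddOrder G) (hN : StExcNormal G) : St123 G :=
  lem123 hG (st1403 hG) (st1404 hG) (st1405 hG) (st1350 hG) (stSigComm hG)
    (stExcSigUniq hG) hN

theorem st1416_of (hG : IsMinSimpleOddOrder G) (hN : StExcNormal G) (hCS : StCentSig G) :
    St1416 G :=
  bg124 hG (st1403 hG) (st1405 hG) (st1406 hG) (st1350 hG) (stSigComm hG)
    (st123_of hG hN) hCS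

end Cfsg.Agent.H92.BG12
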