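import Mathlib
import Cfsg.Agent.H92.BG124Main
import Cfsg.Agent.H92.BG12Sig
import Cfsg.Agent.H37.BG12CS
import Cfsg.Agent.H31.T2
import Cfsg.Agent.S1395
import Cfsg.Agent.S1396

set_option autoImplicit false

/-!
# Bender–Glauberman Proposition 12.4 (= S1416): wiring, part 2 (helper92)

`S1416` from B&G 11.7 (`StExcNormal`) alone: step (ii) is helper37's `centSig`.
-/

namespace Cfsg.Agent.H92.BG12

open Cfsg Subgroup Cfsg.Agent.H58.BG10 Cfsg.Agent.H63.BG11

universe u

variable {G : Type u} [Group G] [Finite G]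

theorem stCentSig (hG : IsMinSimpleOddOrder G) : StCentSig G :=
  Cfsg.Agent.H37.BG12.centSig hG (st1350 hG) (st1405 hG) (st1408 hG) (st1411 hG)
    (fun p _ hpG A hAp hAc h =>
      Cfsg.Agent.S1396.result hG p hpG A hAp hAc (Or.inl ⟨h, fun H hH => st1410 hG p H hH⟩))
    (fun _ hA hZ _ hq hqA hqC => Cfsg.Agent.H31.T2.trans_of_rank_two hG hA hZ hq hqA hqC)
    (fun A hA q hq hqA P hP hPπ hAP hsn htr =>
      Cfsg.Agent.S1395.result hG A hA q hq hqA P hP hPπ hAP hsn htr)
    (sigNe hG (st1405 hG) (st1350 hG))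

/-- `S1416` from B&G 11.7. -/
theorem st1416_of_normal (hG : IsMinSimpleOddOrder G) (hN : StExcNormal G) : St1416 G :=
  st1416_of hG hN (stCentSig hG)

end Cfsg.Agent.H92.BG12
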