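import Cfsg.Agent.H92.TsBase

/-!
# TS-NJ (piece of S2948): `N_G(J(T)) ≤ M` for `T` maximal straddling
-/

set_option autoImplicit false
open Cfsg
open scoped Pointwise

namespace Cfsg.Agent.H92.Ts

universe u

theorem nj : H74.Ts.StNJ.{u} := by
  intro G _ _ S M hM T hT
  have : Fact (Nat.Prime 2) := ⟨Nat.prime_two⟩
  obtain ⟨⟨hT2, hTne, hTM, -⟩, hmax⟩ := hT
  -- `S ≤ M`
  have hSM : (S : Subgroup G) ≤ M :=
    (Subgroup.le_normalizer.trans (normalizer_le_normalizer_thompson _)).trans hM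
  -- Sylow's theorem in `M`
  obtain ⟨Q, hQ⟩ := (hT2.comap_subtype (K := M)).exists_le_sylow
  obtain ⟨m, hm⟩ := MulAction.exists_smul_eq ↥M (S.subtype hSM) Q
  have hgM : (m : G) ∈ M := m.2
  have hTS' : T ≤ (S : Subgroup G).map (MulAut.conj (m : G)).toMonoidHom := by
    intro x hx
    have h1 : (⟨x, hTM hx⟩ : ↥M) ∈ (Q : Subgroup ↥M) :=
      hQ (show (⟨x, hTM hx⟩ : ↥M) ∈ T.comap M.subtype from hx)
    rw [← hm, Sylow.coe_subgroup_smul, Subgroup.mem_pointwise_smul_iff_inv_smul_mem,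
      Sylow.coe_subtype, Subgroup.mem_subgroupOf] at h1
    have h2 : (m : G)⁻¹ * x * (m : G) ∈ (S : Subgroup G) := by
      simpa [MulAut.smul_def] using h1
    exact ⟨(m : G)⁻¹ * x * (m : G), h2, by simp [mul_assoc]⟩
  have hS'M : (S : Subgroup G).map (MulAut.conj (m : G)).toMonoidHom ≤ M := by
    rintro _ ⟨s, hs, rfl⟩
    exact M.mul_mem (M.mul_mem hgM (hSM hs)) (M.inv_mem hgM)
  have hS'2 : IsPGroup 2 ↥((S : Subgroup G).map (MulAut.conj (m : G)).toMonoidHom) :=
    S.isPGroup'.map _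
  have hNS' : Subgroup.normalizer
      (thompsonSubgroupOf 2 ((S : Subgroup G).map (MulAut.conj (m : G)).toMonoidHom) : Set G)
      ≤ M := by
    intro y hy
    have hJ := H14.thompsonSubgroupOf_conj 2 (m : G) (S : Subgroup G)
    have key : ∀ z, z ∈ thompsonSubgroupOf 2 (S : Subgroup G) ↔
        (m : G) * z * (m : G)⁻¹ ∈
          thompsonSubgroupOf 2 ((S : Subgroup G).map (MulAut.conj (m : G)).toMonoidHom) := by
      intro z
      rw [← hJ]
      constructor
      · intro hz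
        exact ⟨z, hz, rfl⟩
      · rintro ⟨w, hw, hwz⟩
        have hwz' : w = z := by simpa using hwz
        exact hwz' ▸ hw
    have h1 : (m : G)⁻¹ * y * (m : G) ∈
        Subgroup.normalizer (thompsonSubgroupOf 2 (S : Subgroup G) : Set G) := by
      rw [Subgroup.mem_normalizer_iff] at hy ⊢
      intro x
      rw [key x, key ((m : G)⁻¹ * y * (m : G) * x * ((m : G)⁻¹ * y * (m : G))⁻¹),
        hy ((m : G) * x * (m : G)⁻¹)]
      have h2 : (m : G) * ((m : G)⁻¹ * y * (m : G) * x * ((m : G)⁻¹ * y * (m : G))⁻¹) *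
          (m : G)⁻¹ = y * ((m : G) * x * (m : G)⁻¹) * y⁻¹ := by group
      rw [h2]
    have h2 := hM h1
    have h3 : y = (m : G) * ((m : G)⁻¹ * y * (m : G)) * (m : G)⁻¹ := by group
    rw [h3]
    exact M.mul_mem (M.mul_mem hgM h2) (M.inv_mem hgM)
  by_cases hTS : T = (S : Subgroup G).map (MulAut.conj (m : G)).toMonoidHom
  · rw [hTS]
    exact hNS'
  · by_contra hcon
    obtain ⟨y, hyS', hyT, hyN⟩ := exists_normalizing hS'2 hTS' hTS
    have hTT₁ : T ≤ (S : Subgroup G).map (MulAut.conj (m : G)).toMonoidHom ⊓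
        Subgroup.normalizer (T : Set G) := le_inf hTS' Subgroup.le_normalizer
    have hyT₁ : y ∈ (S : Subgroup G).map (MulAut.conj (m : G)).toMonoidHom ⊓
        Subgroup.normalizer (T : Set G) := Subgroup.mem_inf.mpr ⟨hyS', hyN⟩
    have hT₁str : (S : Subgroup G).map (MulAut.conj (m : G)).toMonoidHom ⊓
        Subgroup.normalizer (T : Set G) ∈ straddlingTwoSubgroups M := by
      refine ⟨hS'2.to_le inf_le_left, ?_, inf_le_left.trans hS'M,
        Subgroup.normalizer (thompsonSubgroupOf 2 T : Set G), ?_, ?_, hcon⟩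
      · intro h
        apply hTne
        rw [eq_bot_iff, ← h]
        exact hTT₁
      · exact ⟨thompsonSubgroupOf 2 T, hT2.to_le (H14.thompsonSubgroupOf_le 2 T),
          thompson_ne_bot hT2 hTne, rfl⟩
      · exact inf_le_right.trans (normalizer_le_normalizer_thompson T)
    obtain ⟨h1, h2⟩ := hmax _ hT₁str
    have ha := le_antisymm (maxOrder_mono hTT₁) h1
    obtain ⟨h3, h4⟩ := h2 ha.symm
    have hJJ := thompson_le_thompson ((H14.thompsonSubgroupOf_le 2 T).trans hTT₁) ha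
    have h5 := le_antisymm h3 (Subgroup.card_le_of_le hJJ)
    have h6 := h4 h5
    have hEq := Subgroup.eq_of_le_of_card_ge hTT₁ h6
    exact hyT (hEq ▸ hyT₁)

end Cfsg.Agent.H92.Ts
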