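import Mathlib

/-!
# S3793 piece P1: a diagonalisable endomorphism without fixed points has a large commutant

If `g ^ P = 1` with `P` invertible in the algebraically closed field `K` and `g` has no nonzero
fixed vector, then any subspace `C` of `End V` containing the commutant of `g` satisfies
`(dim V)^2 ≤ (P - 1) * dim C`.
-/

set_option autoImplicit false

namespace Cfsg.Agent.H92

theorem fg_eigenbasis_aux1 {K : Type*} [Field K] [DecidableEq K] {V : Type*} [AddCommGroup V]
    [Module K V] [FiniteDimensional K V]
    (g : Module.End K V) (hint : DirectSum.IsInternal (Module.End.eigenspace g)) :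
    ∃ b : Module.Basis (Σ μ : K, Fin (Module.finrank K (Module.End.eigenspace g μ))) K V,
      ∀ a, b a ∈ Module.End.eigenspace g a.1 := by
  refine ⟨hint.collectedBasis (fun μ => Module.finBasis K (Module.End.eigenspace g μ)), ?_⟩
  intro a
  exact DirectSum.IsInternal.collectedBasis_mem hint
    (fun μ => Module.finBasis K (Module.End.eigenspace g μ)) a

theorem fg_eigenbasis_aux2 {K : Type*} [Field K] {V : Type*} [AddCommGroup V]
    [Module K V] [FiniteDimensional K V] (g : Module.End K V) {ι : Type*} (μ : ι → K)
    (b : Module.Basis ι K V) (hb : ∀ a, b a ∈ Module.End.eigenspace g (μ a)) :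
    ∃ (n : ℕ) (b : Module.Basis (Fin n) K V) (e : Fin n → K), ∀ a, g (b a) = e a • b a := by
  classical
  have : Fintype ι := FiniteDimensional.fintypeBasisIndex b
  let eqv := Fintype.equivFin ι
  refine ⟨_, b.reindex eqv, fun i => μ (eqv.symm i), fun i => ?_⟩
  rw [Module.Basis.reindex_apply]
  exact Module.End.mem_eigenspace_iff.mp (hb _)

/-- A finite-order endomorphism (order invertible in the field) has an eigenbasis. -/
theorem fg_exists_eigenbasis {K : Type*} [Field K] [IsAlgClosed K] {V : Type*} [AddCommGroup V]
    [Module K V] [FiniteDimensional K V] (P : ℕ) (hPK : (P : K) ≠ 0)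
    (g : Module.End K V) (hg : g ^ P = 1) :
    ∃ (n : ℕ) (b : Module.Basis (Fin n) K V) (e : Fin n → K), ∀ a, g (b a) = e a • b a := by
  classical
  have hss : g.IsSemisimple := by
    apply Module.End.isSemisimple_of_squarefree_aeval_eq_zero
      (p := (Polynomial.X ^ P - 1 : Polynomial K))
    · exact (Polynomial.X_pow_sub_one_separable_iff.mpr hPK).squarefree
    · simp [hg]
  have htop : ⨆ μ : K, Module.End.eigenspace g μ = ⊤ := hss.iSup_eigenspace_eq_top
  have hind : iSupIndep (Module.End.eigenspace g) := Module.End.eigenspaces_iSupIndep g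
  have hint : DirectSum.IsInternal (Module.End.eigenspace g) :=
    DirectSum.isInternal_submodule_of_iSupIndep_of_iSup_eq_top hind htop
  have h2 := fg_eigenbasis_aux1 g hint
  obtain ⟨b, hb⟩ := h2
  exact fg_eigenbasis_aux2 g
    (ι := (Σ μ : K, Fin (Module.finrank K (Module.End.eigenspace g μ)))) (fun a => a.1) b hb

theorem fg_diag_bound {K : Type*} [Field K] [IsAlgClosed K] {V : Type*} [AddCommGroup V]
    [Module K V] [FiniteDimensional K V] (P : ℕ) (hP : 0 < P) (hPK : (P : K) ≠ 0)
    (g : Module.End K V) (hg : g ^ P = 1) (hfix : ∀ v, g v = v → v = 0)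
    (C : Submodule K (Module.End K V)) (hC : ∀ B : Module.End K V, B * g = g * B → B ∈ C) :
    (Module.finrank K V) ^ 2 ≤ (P - 1) * Module.finrank K C := by
  classical
  obtain ⟨N, b, e, hb⟩ := fg_exists_eigenbasis P hPK g hg
  have hbne : ∀ a, b a ≠ 0 := fun a => b.ne_zero a
  have he1 : ∀ a, e a ≠ 1 := by
    intro a h1
    apply hbne a
    apply hfix
    rw [hb, h1, one_smul]
  have hgpow : ∀ (k : ℕ) a, (g ^ k) (b a) = (e a) ^ k • b a := by
    intro k a
    induction k with
    | zero => simp
    | succ k ih =>
      rw [pow_succ, Module.End.mul_apply, hb, map_smul, ih, smul_smul, pow_succ, mul_comm]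
  have heP : ∀ a, (e a) ^ P = 1 := by
    intro a
    have h1 := hgpow P a
    rw [hg, Module.End.one_apply] at h1
    have h2 : ((e a) ^ P - 1) • b a = 0 := by rw [sub_smul, one_smul, ← h1, sub_self]
    have := (smul_eq_zero.mp h2).resolve_right (hbne a)
    exact sub_eq_zero.mp this
  set T : Finset K := (Polynomial.nthRootsFinset P (1 : K)).erase 1 with hT
  have hTcard : T.card ≤ P - 1 := by
    have h1 : (1 : K) ∈ Polynomial.nthRootsFinset P (1 : K) := by
      rw [Polynomial.mem_nthRootsFinset hP]; simp
    rw [hT, Finset.card_erase_of_mem h1]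
    have h2 : (Polynomial.nthRootsFinset P (1 : K)).card ≤ P := by
      unfold Polynomial.nthRootsFinset
      exact (Multiset.toFinset_card_le _).trans (Polynomial.card_nthRoots P 1)
    omega
  have heT : ∀ a, e a ∈ T := by
    intro a
    rw [hT, Finset.mem_erase]
    exact ⟨he1 a, (Polynomial.mem_nthRootsFinset hP _).mpr (heP a)⟩
  set n : K → ℕ := fun c => (Finset.univ.filter (fun a : Fin N => e a = c)).card with hn
  have hfin : Module.finrank K V = ∑ c ∈ T, n c := by
    rw [Module.finrank_eq_card_basis b, ← Finset.card_univ]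
    exact Finset.card_eq_sum_card_fiberwise (fun a _ => heT a)
  set S : Finset (Fin N × Fin N) :=
    Finset.univ.filter (fun p : Fin N × Fin N => e p.1 = e p.2) with hS
  have hScard : S.card = ∑ c ∈ T, n c ^ 2 := by
    rw [Finset.card_eq_sum_card_fiberwise (f := fun p : Fin N × Fin N => e p.1) (t := T)
      (fun p _ => heT p.1)]
    refine Finset.sum_congr rfl fun c _ => ?_
    have : (S.filter (fun p : Fin N × Fin N => e p.1 = c))
        = (Finset.univ.filter (fun a : Fin N => e a = c)) ×ˢ
          (Finset.univ.filter (fun a : Fin N => e a = c)) := by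
      ext p
      simp only [hS, Finset.mem_filter, Finset.mem_univ, true_and, Finset.mem_product]
      constructor
      · rintro ⟨h1, h2⟩; exact ⟨h2, h1.symm.trans h2⟩
      · rintro ⟨h1, h2⟩; exact ⟨h1.trans h2.symm, h1⟩
    rw [this, Finset.card_product, sq]
  have hmem : ∀ p : S, b.end p.1 ∈ C := by
    intro p
    apply hC
    have hp : e p.1.1 = e p.1.2 := (Finset.mem_filter.mp p.2).2
    apply b.ext
    intro k
    rw [Module.End.mul_apply, Module.End.mul_apply, hb, map_smul, Module.Basis.end_apply_apply]
    split_ifs with h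
    · rw [hb, ← h, hp]
    · simp
  have hli : LinearIndependent K (fun p : S => (⟨b.end p.1, hmem p⟩ : C)) := by
    have h1 : LinearIndependent K (fun p : S => b.end p.1) :=
      b.end.linearIndependent.comp (fun p : S => p.1) Subtype.val_injective
    exact LinearIndependent.of_comp C.subtype h1
  have hle : S.card ≤ Module.finrank K C := by
    have := hli.fintype_card_le_finrank
    simpa using this
  calc (Module.finrank K V) ^ 2 = (∑ c ∈ T, n c) ^ 2 := by rw [hfin]
    _ ≤ T.card * ∑ c ∈ T, n c ^ 2 := sq_sum_le_card_mul_sum_sq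
    _ ≤ (P - 1) * Module.finrank K C := by
      rw [← hScard]
      exact Nat.mul_le_mul hTcard hle

end Cfsg.Agent.H92
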