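import Cfsg.Agent.H66.HHB

/-!
# S3793 piece P4: weights

A vector `v` that is a weight vector for an automorphism-invariant subgroup `Z` with weight
`lam`, fixed by `X ^ m`, where `X` intertwines `ρ` with its `σ`-twist, `∑_{i < m * P} X ^ i = 0`
and the weights `lam ∘ σ ^ j` (`0 < j < m`) differ from `lam` on `Z`, must vanish.
-/

set_option autoImplicit false

namespace Cfsg.Agent.H92

theorem fg_fix {K : Type*} [Field K] {Q : Type*} [Group Q] {W : Type*} [AddCommGroup W]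
    [Module K W]
    (ρ : Q →* Module.End K W) (σ : MulAut Q) (X : Module.End K W)
    (hX : ∀ h, X * ρ h = ρ (σ h) * X)
    (Z : Subgroup Q) (hZ : ∀ τ : MulAut Q, ∀ z ∈ Z, τ z ∈ Z) (lam : Q → K)
    (m P : ℕ) (hm : 0 < m) (hPK : (P : K) ≠ 0)
    (hsum : ∑ i ∈ Finset.range (m * P), X ^ i = 0)
    (hst : ∀ j, 0 < j → j < m → ∃ z ∈ Z, lam ((σ ^ j) z) ≠ lam z)
    (v : W) (hv : ∀ z ∈ Z, ρ z v = lam z • v) (hXv : (X ^ m) v = v) : v = 0 := by
  classical
  have hpow : ∀ i : ℕ, ∀ h, X ^ i * ρ h = ρ ((σ ^ i) h) * X ^ i := by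
    intro i
    induction i with
    | zero => intro h; simp
    | succ i ih =>
      intro h
      rw [pow_succ, mul_assoc, hX, ← mul_assoc, ih, mul_assoc, pow_succ]
      rfl
  -- `X ^ (m * k) v = v`
  have hXmk : ∀ k : ℕ, (X ^ (m * k)) v = v := by
    intro k
    induction k with
    | zero => simp
    | succ k ih =>
      rw [Nat.mul_succ, pow_add, Module.End.mul_apply, hXv, ih]
  have hblock : ∀ k : ℕ, ∑ i ∈ Finset.range (m * k), (X ^ i) v
      = (k : K) • ∑ j ∈ Finset.range m, (X ^ j) v := by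
    intro k
    induction k with
    | zero => simp
    | succ k ih =>
      rw [Nat.mul_succ, Finset.sum_range_add, ih, Nat.cast_succ, add_smul, one_smul]
      congr 1
      refine Finset.sum_congr rfl fun j _ => ?_
      rw [add_comm, pow_add, Module.End.mul_apply, hXmk]
  have hzero : ∑ j ∈ Finset.range m, (X ^ j) v = 0 := by
    have h1 : ∑ i ∈ Finset.range (m * P), (X ^ i) v = 0 := by
      have := congrArg (fun T : Module.End K W => T v) hsum
      simpa using this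
    rw [hblock] at h1
    exact (smul_eq_zero.mp h1).resolve_left hPK
  -- weights
  have hw : ∀ j : ℕ, ∀ z ∈ Z, ρ z ((X ^ j) v) = lam ((σ ^ j)⁻¹ z) • (X ^ j) v := by
    intro j z hz
    have hmem : (σ ^ j)⁻¹ z ∈ Z := hZ _ z hz
    have h1 := hpow j ((σ ^ j)⁻¹ z)
    have h2 : (σ ^ j) ((σ ^ j)⁻¹ z) = z := MulAut.apply_inv_self _ _ _
    rw [h2] at h1
    have h3 := congrArg (fun T : Module.End K W => T v) h1
    simp only [Module.End.mul_apply] at h3
    rw [← h3, hv _ hmem, map_smul]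
  have hdist : ∀ i ∈ Finset.range m, ∀ j ∈ Finset.range m, i ≠ j →
      ∃ z ∈ (Z : Set Q), (fun (j : ℕ) (z : Q) => lam ((σ ^ j)⁻¹ z)) i z
        ≠ (fun (j : ℕ) (z : Q) => lam ((σ ^ j)⁻¹ z)) j z := by
    intro i hi j hj hij
    have hi' := Finset.mem_range.mp hi
    have hj' := Finset.mem_range.mp hj
    rcases lt_or_gt_of_ne hij with hlt | hgt
    · obtain ⟨z', hz', hne⟩ := hst (j - i) (by omega) (by omega)
      refine ⟨(σ ^ j) z', hZ _ z' hz', ?_⟩
      show lam ((σ ^ i)⁻¹ ((σ ^ j) z')) ≠ lam ((σ ^ j)⁻¹ ((σ ^ j) z'))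
      have e1 : (σ ^ j)⁻¹ ((σ ^ j) z') = z' := MulAut.inv_apply_self _ _ _
      have e2 : (σ ^ i)⁻¹ ((σ ^ j) z') = (σ ^ (j - i)) z' := by
        have : σ ^ j = σ ^ i * σ ^ (j - i) := by rw [← pow_add]; congr 1; omega
        rw [this, MulAut.mul_apply, MulAut.inv_apply_self]
      rw [e1, e2]
      exact hne
    · obtain ⟨z', hz', hne⟩ := hst (i - j) (by omega) (by omega)
      refine ⟨(σ ^ i) z', hZ _ z' hz', ?_⟩
      show lam ((σ ^ i)⁻¹ ((σ ^ i) z')) ≠ lam ((σ ^ j)⁻¹ ((σ ^ i) z'))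
      have e1 : (σ ^ i)⁻¹ ((σ ^ i) z') = z' := MulAut.inv_apply_self _ _ _
      have e2 : (σ ^ j)⁻¹ ((σ ^ i) z') = (σ ^ (i - j)) z' := by
        have : σ ^ i = σ ^ j * σ ^ (i - j) := by rw [← pow_add]; congr 1; omega
        rw [this, MulAut.mul_apply, MulAut.inv_apply_self]
      rw [e1, e2]
      exact hne.symm
  have key := Cfsg.Agent.H66.weight_indep (K := K) (V := W) (fun z : Q => ρ z) (Z : Set Q)
    (fun (j : ℕ) (z : Q) => lam ((σ ^ j)⁻¹ z)) (Finset.range m) hdist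
    (fun j => (X ^ j) v) (fun j _ z hz => hw j z hz) hzero 0 (Finset.mem_range.mpr hm)
  simpa using key

end Cfsg.Agent.H92
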