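import Mathlib
import Cfsg.Agent.H57.BG1218Defs
import Cfsg.Agent.H92.BG12Uniq
import Cfsg.Agent.S1456
import Cfsg.Agent.S0008
import Cfsg.Agent.H71.BG10K
import Cfsg.Agent.Lib.Helper30.Trans

set_option autoImplicit false
set_option linter.style.haveILetI false

/-!
# B&G Lemma 12.8 = piece SYLN of helper57's S1427 project (helper92)

`p ∈ τ₂(H)`, `A ≤ H` elementary abelian of order `p²`, `P ⊇ A` a commutative Sylow `p`-subgroup
of `G`: `N_G(A) ≤ N_G(P)`.
-/

namespace Cfsg.Agent.H92.BG1218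

open Cfsg Subgroup Cfsg.Agent.H58.BG10 Cfsg.Agent.H57.BG1218 Cfsg.Agent.H92.BG12
open scoped Pointwise commutatorElement

universe u

variable {G : Type u} [Group G] [Finite G]

/-- In the setting of SYLN: `A = Ω₁(P)` and `P ≤ H`. -/
theorem sylN_omega (h16 : St1416 G) (h17 : St1417 G) {H : Subgroup G} (hH : IsCoatom H) {p : ℕ}
    [Fact p.Prime] (hp2 : p ∈ tau2 H) {A : Subgroup G} (hAH : A ≤ H)
    (hel : IsElementaryAbelian p A) (hcard : Nat.card A = p ^ 2) (P : Sylow p G)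
    (hAP : A ≤ (P : Subgroup G)) (hPc : IsMulCommutative (P : Subgroup G)) :
    (P : Subgroup G) ≤ H ∧ ∀ x ∈ (P : Subgroup G), x ^ p = 1 ↔ x ∈ A := by
  obtain ⟨-, hSyl, -, -, -, -⟩ := h17 H hH p hp2 A ⟨hAH, hel, hcard⟩
  have hCA : centralizer (A : Set G) ≤ H := (h16 H hH p A ⟨hAH, hel, hcard⟩).1
  have hPcomm : ∀ a ∈ (P : Subgroup G), ∀ b ∈ (P : Subgroup G), a * b = b * a :=
    fun a ha b hb => congrArg Subtype.val (hPc.is_comm.comm ⟨a, ha⟩ ⟨b, hb⟩)
  have hPH : (P : Subgroup G) ≤ H := fun x hx => hCA (fun a ha => hPcomm a (hAP ha) x hx)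
  refine ⟨hPH, ?_⟩
  have h1 := (hSyl (P.subtype hPH)).2
  have hmap : ((P.subtype hPH : Sylow p H) : Subgroup H).map H.subtype = (P : Subgroup G) := by
    rw [Sylow.coe_subtype]
    exact Subgroup.map_subgroupOf_eq_of_le hPH
  rw [hmap] at h1
  exact (h1 hAP).1

/-- `N_G(P) ≤ N_G(Ω₁(P))`. -/
theorem normalizer_le_of_omega {p : ℕ} {A P : Subgroup G} (hAP : A ≤ P)
    (hAp : ∀ a ∈ A, a ^ p = 1) (hΩ : ∀ x ∈ P, x ^ p = 1 ↔ x ∈ A) :
    normalizer (P : Set G) ≤ normalizer (A : Set G) := by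
  have key : ∀ n ∈ normalizer (P : Set G), ∀ a ∈ A, n * a * n⁻¹ ∈ A := by
    intro n hn a ha
    have h1 : n * a * n⁻¹ ∈ P := (Subgroup.mem_normalizer_iff.mp hn a).mp (hAP ha)
    refine (hΩ _ h1).mp ?_
    rw [conj_pow, hAp a ha]
    simp
  intro n hn
  rw [Subgroup.mem_normalizer_iff]
  intro a
  refine ⟨key n hn a, fun h => ?_⟩
  have := key n⁻¹ (inv_mem hn) _ h
  simpa [mul_assoc] using this

/-- B&G 12.8. -/
theorem sylN (hG : IsMinSimpleOddOrder G) (h03 : St1403 G) (h50 : St1350 G)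
    (h1411 : St1411 G) (h16 : St1416 G) (h17 : St1417 G) : StSylN G := by
  intro H hH p _ hp2 A hAH hel hcard P hAP hPc
  have hp : p.Prime := Fact.out
  obtain ⟨hPH, hΩ⟩ := sylN_omega h16 h17 hH hp2 hAH hel hcard P hAP hPc
  obtain ⟨-, -, -, hcent, -, -⟩ := h17 H hH p hp2 A ⟨hAH, hel, hcard⟩
  have hCA : centralizer (A : Set G) ≤ H := (h16 H hH p A ⟨hAH, hel, hcard⟩).1
  have hNPA : normalizer ((P : Subgroup G) : Set G) ≤ normalizer (A : Set G) :=
    normalizer_le_of_omega hAP hel.2 hΩ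
  -- the group `N = N_G(A)`
  have hA1 : A ≠ ⊥ := by
    intro h
    rw [h, Subgroup.card_bot] at hcard
    have := Nat.one_lt_pow (n := 2) two_ne_zero hp.one_lt
    omega
  have hAtop : A ≠ ⊤ := fun h => hH.1 (top_le_iff.mp (h ▸ hAH))
  obtain ⟨N, hNdef⟩ : ∃ N : Subgroup G, N = normalizer (A : Set G) := ⟨_, rfl⟩
  have hNtop : N ≠ ⊤ := by
    rw [hNdef]
    exact Cfsg.Agent.Lib.Helper30.minSimple_normalizer_ne_top hG hA1 hAtop
  haveI : Group.IsSolvable N := Cfsg.Agent.Lib.Helper30.minSimple_solvable_of_ne_top hG hNtop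
  have hodd : Odd (Nat.card N) := hG.1.of_dvd_nat (Subgroup.card_subgroup_dvd_card N)
  have hAN : A ≤ N := by rw [hNdef]; exact Subgroup.le_normalizer
  have hEn : (A.subgroupOf N).Normal := by
    rw [hNdef]; exact Subgroup.normal_in_normalizer
  have hAcomm : ∀ a ∈ A, ∀ b ∈ A, a * b = b * a := fun a ha b hb =>
    congrArg Subtype.val (hel.1.is_comm.comm ⟨a, ha⟩ ⟨b, hb⟩)
  have hEcomm : IsMulCommutative (A.subgroupOf N) :=
    ⟨⟨fun a b => Subtype.ext (Subtype.ext (hAcomm _ (Subgroup.mem_subgroupOf.mp a.2) _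
      (Subgroup.mem_subgroupOf.mp b.2)))⟩⟩
  have hEnil : Group.IsNilpotent (A.subgroupOf N) := by
    letI : CommGroup (A.subgroupOf N) := { (inferInstance : Group (A.subgroupOf N)) with
      mul_comm := hEcomm.is_comm.comm }
    exact CommGroup.isNilpotent
  have hEF : A.subgroupOf N ≤ fittingSubgroup N := le_sSup ⟨hEn, hEnil⟩
  have hEe : IsElementaryAbelian p (A.subgroupOf N) :=
    ⟨hEcomm, fun a ha => Subtype.ext (by simpa using hel.2 a (Subgroup.mem_subgroupOf.mp ha))⟩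
  have hr : RankLE 2 ↥(fittingSubgroup N ⊓ centralizer ((A.subgroupOf N : Subgroup N) : Set N)) := by
    set K : Subgroup N := fittingSubgroup N ⊓
      centralizer ((A.subgroupOf N : Subgroup N) : Set N) with hK
    intro r hr B hBc hBr
    haveI : Fact r.Prime := ⟨hr⟩
    obtain ⟨B', hB'⟩ : ∃ B' : Subgroup G, B' = (B.map K.subtype).map N.subtype := ⟨_, rfl⟩
    have hcardB : Nat.card B' = Nat.card B := by
      rw [hB', Subgroup.card_map_of_injective (Subgroup.subtype_injective _),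
        Subgroup.card_map_of_injective (Subgroup.subtype_injective _)]
    have hB'CA : B' ≤ centralizer (A : Set G) := by
      rw [hB']
      rintro _ ⟨n, ⟨k, hk, rfl⟩, rfl⟩ a ha
      have h1 : (k : N) ∈ centralizer ((A.subgroupOf N : Subgroup N) : Set N) :=
        (Subgroup.mem_inf.mp k.2).2
      have h2 := h1 ⟨a, hAN ha⟩ (Subgroup.mem_subgroupOf.mpr ha)
      exact congrArg Subtype.val h2
    have hB'H : B' ≤ H := hB'CA.trans hCA
    have hB'r : ∀ b ∈ B', b ^ r = 1 := by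
      rw [hB']
      rintro _ ⟨n, ⟨k, hk, rfl⟩, rfl⟩
      have := hBr k hk
      simpa using congrArg (fun x : K => ((x : N) : G)) this
    have hB'comm : ∀ a ∈ B', ∀ b ∈ B', a * b = b * a := by
      rw [hB']
      rintro _ ⟨_, ⟨k₁, hk₁, rfl⟩, rfl⟩ _ ⟨_, ⟨k₂, hk₂, rfl⟩, rfl⟩
      have := hBc.is_comm.comm ⟨k₁, hk₁⟩ ⟨k₂, hk₂⟩
      simpa using congrArg (fun x : B => (((x : K) : N) : G)) this
    rw [← hcardB]
    by_cases hrσ : r ∈ sigma H
    · have hB'q : IsPGroup r B' := fun b => ⟨1, by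
        apply Subtype.ext
        simpa using hB'r b b.2⟩
      have h1 : B' ≤ sigmaCore H := le_sigmaCore_of_mem h50 hH hrσ hB'q hB'H
      have h2 : B' ≤ sigmaCore H ⊓ centralizer (A : Set G) := le_inf h1 hB'CA
      rw [hcent] at h2
      rw [le_bot_iff.mp h2, Subgroup.card_bot]
      exact Nat.one_le_pow _ _ hr.pos
    · have hrα : r ∉ alpha H := fun h => hrσ (alpha_subset_sigma hG h03 hH h)
      have hrk : PRankLE r 2 H := by
        by_contra h
        exact hrα ⟨hr, h⟩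
      have h1 := hrk (B'.subgroupOf H)
        ⟨⟨fun a b => Subtype.ext (Subtype.ext (hB'comm _ (Subgroup.mem_subgroupOf.mp a.2) _
          (Subgroup.mem_subgroupOf.mp b.2)))⟩⟩
        (fun a ha => Subtype.ext (by simpa using hB'r a (Subgroup.mem_subgroupOf.mp ha)))
      rwa [Nat.card_congr (Subgroup.subgroupOfEquivOfLe hB'H).toEquiv] at h1
  have hcomm : commutator N ≤ fittingSubgroup N :=
    Cfsg.Agent.S1456.result hodd p (A.subgroupOf N) hEF hEe hr
  -- `P ≤ N_G(P)' ≤ N' ≤ F`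
  obtain ⟨V, hV, -⟩ := Cfsg.Agent.H71.BG10.exists_compl_sylow_normalizer P
  have hPder := (h1411 p P V hV).2
  obtain ⟨F, hF⟩ : ∃ F : Subgroup G, F = (fittingSubgroup N).map N.subtype := ⟨_, rfl⟩
  have hNN : ⁅N, N⁆ ≤ F := by
    rw [Subgroup.commutator_le]
    intro a ha b hb
    rw [hF]
    refine ⟨⁅(⟨a, ha⟩ : N), ⟨b, hb⟩⁆, hcomm ?_, rfl⟩
    rw [commutator_def]
    exact Subgroup.commutator_mem_commutator (Subgroup.mem_top _) (Subgroup.mem_top _)
  have hPF : (P : Subgroup G) ≤ F :=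
    hPder.trans ((Subgroup.commutator_mono (hNdef ▸ hNPA) (hNdef ▸ hNPA)).trans hNN)
  have hFnil : Group.IsNilpotent F := by
    haveI : Group.IsNilpotent (fittingSubgroup N) := Cfsg.Agent.S0008.result
    have e : fittingSubgroup N ≃* F := by
      rw [hF]
      exact Subgroup.equivMapOfInjective _ _ (Subgroup.subtype_injective _)
    exact (Group.isNilpotent_congr e).mp inferInstance
  have hFnorm : (fittingSubgroup N).Normal := by
    constructor
    intro x hx g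
    have hle : fittingSubgroup N ≤ (fittingSubgroup N).comap (MulAut.conj g).toMonoidHom := by
      apply sSup_le
      intro K hK k hk
      rw [Subgroup.mem_comap]
      exact (le_sSup hK : K ≤ fittingSubgroup N) (hK.1.conj_mem k hk g)
    exact hle hx
  intro n hn
  have hnN : n ∈ N := hNdef ▸ hn
  have hnF : ((n • P : Sylow p G) : Subgroup G) ≤ F := by
    rw [Sylow.coe_subgroup_smul]
    rintro _ ⟨x, hx, rfl⟩
    obtain ⟨f, hf, rfl⟩ := (hF ▸ hPF) hx
    rw [hF]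
    exact ⟨⟨n, hnN⟩ * f * ⟨n, hnN⟩⁻¹, hFnorm.conj_mem f hf ⟨n, hnN⟩, by simp⟩
  have h1 := sylow_eq_of_le_nilpotent hFnil (n • P) P hnF hPF
  exact Sylow.smul_eq_iff_mem_normalizer.mp (Sylow.ext h1)

example (hG : IsMinSimpleOddOrder G) (h03 : St1403 G) (h50 : St1350 G)
    (h1411 : St1411 G) (h16 : St1416 G) (h17 : St1417 G) : Cfsg.Agent.H57.BG1218.StSylN G :=
  sylN hG h03 h50 h1411 h16 h17

end Cfsg.Agent.H92.BG1218
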