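import Mathlib
import Cfsg.Prelude
import Cfsg.Agent.H76.NCKillDefs

set_option autoImplicit false

/-!
# S1353 (`C_U(k) = 1` for `k ∈ K^#`): the residual configuration and its pieces (helper92)

After the easy reductions (prime-order subgroups `P ≤ K`, `R ≤ U` with `[P, R] = 1`, S1428 and
`τ₂`-theory) a counterexample to S1353 gives the configuration `Cfg` below.  It is killed
* when the Sylow `r`-subgroups of `G` are abelian, by a fusion argument (`StAb`);
* when they are nonabelian, by `(Z)`: `M ≤ C_G(A₀)` (`StZU`, `StZK`, the latter through the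
  pure module-theoretic lemma `StFree`) and helper76's `NCKill.StKill`.
-/

namespace Cfsg.Agent.H92.F2

open Cfsg Subgroup

universe u

/-- The residual configuration: `M = M_σ U K` maximal, `r ∈ τ₂(M)`, `A ≤ E = U K` elementary
abelian of order `r²`, `P ≤ K` of order `p ∈ τ₁(M)` with `C_{M_σ}(P) ≠ 1`, `R ≤ U ∩ A` of order
`r` centralized by `P` with `C_{M_σ}(R) ≠ 1`, and `P` does not centralize `A`. -/
structure Cfg {G : Type u} [Group G] (M K U A P R : Subgroup G) (r p : ℕ) : Prop where
  coatom : IsCoatom M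
  dec : IsSigmaDecomposition M K U
  tau2 : r ∈ tau2 M
  AE : A ≤ U ⊔ K
  Ael : IsElementaryAbelian r A
  Acard : Nat.card A = r ^ 2
  PK : P ≤ K
  Pcard : Nat.card P = p
  tau1 : p ∈ tau1 M
  RU : R ≤ U
  RA : R ≤ A
  Rcard : Nat.card R = r
  PR : P ≤ centralizer (R : Set G)
  PA : ¬ P ≤ centralizer (A : Set G)
  Rfix : sigmaCore M ⊓ centralizer (R : Set G) ≠ ⊥
  Pfix : sigmaCore M ⊓ centralizer (P : Set G) ≠ ⊥

/-- (FREE) pure: a Frobenius-like group `B D` (`B` of prime order `r`, `D` acting faithfully on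
`B`) acting on an abelian group `V` with `C_V(B) = 1`: then `|V| = |C_V(D)| ^ |D|`. -/
def StFree : Prop :=
  ∀ (G : Type u) [Group G] [Finite G] (V B D : Subgroup G) (r : ℕ), r.Prime →
    Nat.card B = r → (∀ x ∈ V, ∀ y ∈ V, x * y = y * x) →
    B ≤ normalizer (V : Set G) → D ≤ normalizer (V : Set G) → D ≤ normalizer (B : Set G) →
    D ⊓ centralizer (B : Set G) = ⊥ → V ⊓ centralizer (B : Set G) = ⊥ →
    Nat.card V = Nat.card ↥(V ⊓ centralizer (D : Set G)) ^ Nat.card D

/-- (AB) the configuration does not occur when the Sylow `r`-subgroups of `G` are abelian. -/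
def StAb (G : Type u) [Group G] [Finite G] : Prop :=
  IsMinSimpleOddOrder G → ∀ (M K U A P R : Subgroup G) (r p : ℕ) [Fact r.Prime],
    Cfg M K U A P R r p → (∃ S : Sylow r G, IsMulCommutative (S : Subgroup G)) → False

/-- (ZU) nonabelian case: `U` centralizes `A₀ = C_A(M_σ)`. -/
def StZU (G : Type u) [Group G] [Finite G] : Prop :=
  IsMinSimpleOddOrder G → ∀ (M K U A P R : Subgroup G) (r p : ℕ) [Fact r.Prime],
    Cfg M K U A P R r p → (∀ S : Sylow r G, ¬ IsMulCommutative (S : Subgroup G)) →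
    R = Cfsg.Agent.H76.NCKill.A0 M A →
    U ≤ centralizer ((Cfsg.Agent.H76.NCKill.A0 M A : Subgroup G) : Set G)

/-- (ZK) nonabelian case: `K` centralizes `A₀ = C_A(M_σ)` (in fact `K = P`). -/
def StZK (G : Type u) [Group G] [Finite G] : Prop :=
  IsMinSimpleOddOrder G → ∀ (M K U A P R : Subgroup G) (r p : ℕ) [Fact r.Prime],
    Cfg M K U A P R r p → (∀ S : Sylow r G, ¬ IsMulCommutative (S : Subgroup G)) →
    R = Cfsg.Agent.H76.NCKill.A0 M A →
    K ≤ centralizer ((Cfsg.Agent.H76.NCKill.A0 M A : Subgroup G) : Set G)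

/-- (MAIN) the configuration does not occur. -/
def StMain (G : Type u) [Group G] [Finite G] : Prop :=
  IsMinSimpleOddOrder G → ∀ (M K U A P R : Subgroup G) (r p : ℕ) [Fact r.Prime],
    Cfg M K U A P R r p → False

end Cfsg.Agent.H92.F2
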