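import Mathlib
import Cfsg.Agent.H3.FpfSpecial
import Cfsg.Agent.H92.Fg1
import Cfsg.Agent.H38.Fg5
import Cfsg.Agent.H38.Fg6
import Cfsg.Agent.Lib.Lead.Fg7

/-!
# The Shult–Gross linear step for an automorphism of prime order (piece S4306-TELIN)

Adaptation of `Cfsg.Agent.H3.fg_special_false` to an automorphism of prime order `q` whose fixed
points are exactly the centre: the conclusion is the Fermat/Mersenne shape `q = r ^ n + 1`.
-/

set_option autoImplicit false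
set_option linter.style.haveILetI false
set_option linter.unusedVariables false
set_option linter.unusedSectionVars false

namespace Cfsg.Agent.H92

open scoped commutatorElement

/-- Pure arithmetic at the end of `te_lin`. -/
theorem te_lin_arith {q d t c : ℕ} (hq : q.Prime) (hd2 : 2 ≤ d)
    (ht : d ^ 2 - 1 = q * t) (hc : c ≤ t + 1) (hb : d ^ 2 ≤ (q - 1) * c) : d + 1 = q := by
  have hq2 := hq.two_le
  have hd4 : 4 ≤ d ^ 2 := by nlinarith
  have hb' : d ^ 2 ≤ (q - 1) * (t + 1) := hb.trans (Nat.mul_le_mul_left _ hc)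
  obtain ⟨q', rfl⟩ : ∃ q', q = q' + 1 := ⟨q - 1, by omega⟩
  have hb'' : d ^ 2 ≤ q' * (t + 1) := by simpa using hb'
  have ht' : d ^ 2 = (q' + 1) * t + 1 := by omega
  -- t + 1 ≤ q'
  have htq : t + 1 ≤ q' := by nlinarith
  have hdq : d ≤ q' := by
    by_contra hcon
    push Not at hcon
    have : (q' + 1) ^ 2 ≤ d ^ 2 := Nat.pow_le_pow_left hcon 2
    nlinarith
  have hdvd : (q' + 1) ∣ (d - 1) * (d + 1) := by
    refine ⟨t, ?_⟩
    obtain ⟨d', rfl⟩ : ∃ d', d = d' + 1 := ⟨d - 1, by omega⟩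
    simp only [Nat.add_sub_cancel]
    nlinarith
  rcases (Nat.Prime.dvd_mul hq).mp hdvd with h | h
  · exfalso
    have := Nat.le_of_dvd (by omega) h
    omega
  · have := Nat.le_of_dvd (by omega) h
    omega

set_option maxHeartbeats 1600000 in
theorem te_lin {K : Type*} [Field K] [IsAlgClosed K] {Q : Type*} [Group Q] [Finite Q]
    {W : Type*} [AddCommGroup W] [Module K W] [FiniteDimensional K W]
    {q r : ℕ} (hq : q.Prime) (hr : r.Prime) (hqr : q ≠ r) (hQ : IsPGroup r Q)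
    (hrK : (r : K) ≠ 0) (hqK : (q : K) ≠ 0)
    (σ : MulAut Q) (hσ : σ ^ q = 1)
    (hcl : ∀ x y : Q, ⁅x, y⁆ ∈ Subgroup.center Q)
    (hnab : ∃ x y : Q, x * y ≠ y * x)
    (hσZ : ∀ g : Q, σ g = g ↔ g ∈ Subgroup.center Q)
    (ρ : Q →* Module.End K W) (hρ : Function.Injective ρ)
    (Y : Module.End K W) (hY : ∀ h, Y * ρ h = ρ (σ h) * Y) (hYq : Y ^ q = 1)
    (hsum : ∑ i ∈ Finset.range q, Y ^ i = 0) : ∃ n : ℕ, q = r ^ n + 1 := by
  classical
  haveI : Fact r.Prime := ⟨hr⟩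
  obtain ⟨e, he⟩ := IsPGroup.iff_card.mp hQ
  have hcast : ∀ k : ℕ, k ∣ Nat.card Q → (k : K) ≠ 0 := by
    intro k hk
    rw [he] at hk
    obtain ⟨j, -, rfl⟩ := (Nat.dvd_prime_pow hr).mp hk
    rw [Nat.cast_pow]; exact pow_ne_zero _ hrK
  have hcen : ∀ z ∈ Subgroup.center Q, ∀ g : Q, g * z = z * g :=
    fun z hz g => Subgroup.mem_center_iff.mp hz g
  have hβU : ∀ x : Q, x⁻¹ * σ x ∈ Subgroup.center Q → x ∈ Subgroup.center Q := by
    intro x hx
    obtain ⟨z, hz⟩ : ∃ z, z = x⁻¹ * σ x := ⟨_, rfl⟩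
    rw [← hz] at hx
    have hσx : σ x = x * z := by rw [hz]; group
    have hσz : σ z = z := (hσZ z).mpr hx
    have hpow : ∀ j : ℕ, (σ ^ j) x = x * z ^ j := by
      intro j
      induction j with
      | zero => simp
      | succ j ih =>
        rw [H3.fg_pow_succ_apply, ih, map_mul, map_pow, hσx, hσz, pow_succ', mul_assoc]
    have h1 := hpow q
    rw [hσ, MulAut.one_apply] at h1
    have hzq : z ^ q = 1 := by
      have h2 : x * 1 = x * z ^ q := by rw [mul_one]; exact h1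
      exact (mul_left_cancel h2).symm
    have hz1 : z = 1 := by
      have h2 : orderOf z ∣ q := orderOf_dvd_of_pow_eq_one hzq
      have h3 : orderOf z ∣ r ^ e := he ▸ orderOf_dvd_natCard z
      have hcop : Nat.Coprime q (r ^ e) :=
        Nat.Coprime.pow_right _ ((Nat.coprime_primes hq hr).mpr hqr)
      have h4 : orderOf z = 1 := Nat.eq_one_of_dvd_coprimes hcop h2 h3
      exact orderOf_eq_one_iff.mp h4
    rw [hz1, mul_one] at hσx
    exact (hσZ x).mp hσx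
  have hS1 : ∀ i, 0 < i → i < q → ∀ x : Q,
      x⁻¹ * (σ ^ i) x ∈ Subgroup.center Q → x ∈ Subgroup.center Q := by
    intro i hi0 hi x hx
    exact H3.fg_S1 hq 0 σ (by rw [zero_add, pow_one]; exact hσ)
      (by intro x hx; rw [pow_zero, pow_one] at hx; exact hβU x hx) i hi0
      (by rw [zero_add, pow_one]; exact hi) x hx
  obtain ⟨x₁, b₁, hxb⟩ := hnab
  obtain ⟨z₁, hz₁⟩ : ∃ z₁, z₁ = ⁅x₁, b₁⁆ := ⟨_, rfl⟩
  have hz₁Z : z₁ ∈ Subgroup.center Q := hz₁ ▸ hcl x₁ b₁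
  have hz₁ne : z₁ ≠ 1 := by
    intro h
    apply hxb
    rw [hz₁, commutatorElement_eq_one_iff_mul_comm] at h
    exact h
  have hρz₁ : ρ z₁ ≠ 1 := fun h => hz₁ne (hρ (by rw [h, map_one]))
  obtain ⟨U, hU⟩ : ∃ U : Submodule K W, U = LinearMap.range (ρ z₁ - 1) := ⟨_, rfl⟩
  have hUne : U ≠ ⊥ := by
    rw [hU]
    intro h
    rw [LinearMap.range_eq_bot] at h
    exact hρz₁ (sub_eq_zero.mp h)
  have hUinv : ∀ h : Q, ∀ w ∈ U, ρ h w ∈ U := by
    intro h w hw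
    rw [hU] at hw ⊢
    obtain ⟨w', rfl⟩ := hw
    refine ⟨ρ h w', ?_⟩
    have e : ρ h * ρ z₁ = ρ z₁ * ρ h := by rw [← map_mul, ← map_mul, hcen z₁ hz₁Z h]
    have e' := congrArg (fun f : Module.End K W => f w') e
    simp only [Module.End.mul_apply] at e'
    simp only [LinearMap.sub_apply, Module.End.one_apply, map_sub]
    rw [e']
  obtain ⟨Y₁, ⟨hY₁ne, hY₁U, hY₁inv⟩, hY₁min'⟩ :=
    (wellFounded_lt : WellFounded ((· < ·) : Submodule K W → Submodule K W → Prop)).has_min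
      {Y : Submodule K W | Y ≠ ⊥ ∧ Y ≤ U ∧ ∀ h : Q, ∀ y ∈ Y, ρ h y ∈ Y}
      ⟨U, hUne, le_rfl, hUinv⟩
  have hY₁min : ∀ U' : Submodule K W, U' ≤ Y₁ → (∀ h : Q, ∀ w ∈ U', ρ h w ∈ U') →
      U' = ⊥ ∨ U' = Y₁ := by
    intro U' hU' hinv
    by_contra hcon
    push Not at hcon
    exact hY₁min' U' ⟨hcon.1, hU'.trans hY₁U, hinv⟩ (lt_of_le_of_ne hU' hcon.2)
  haveI hY₁nt : Nontrivial ↥Y₁ := Submodule.nontrivial_iff_ne_bot.mpr hY₁ne
  obtain ⟨ρ₁, hρ₁def⟩ : ∃ ρ₁ : Q →* Module.End K ↥Y₁, ρ₁ = H66.resRep ρ Y₁ hY₁inv := ⟨_, rfl⟩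
  have hρ₁ : ∀ (h : Q) (y : ↥Y₁), ((ρ₁ h y : ↥Y₁) : W) = ρ h (y : W) := by
    intro h y; rw [hρ₁def]; rfl
  have hirr : ∀ U' : Submodule K ↥Y₁, (∀ h : Q, ∀ y ∈ U', ρ₁ h y ∈ U') → U' = ⊥ ∨ U' = ⊤ := by
    rw [hρ₁def]; exact H66.resRep_irr ρ Y₁ hY₁inv hY₁min
  have hZs : ∀ z ∈ Subgroup.center Q, ∃ c : K, ρ₁ z = c • 1 := by
    intro z hz
    exact H66.schur_scalar ρ₁ hirr (ρ₁ z)
      (fun a => by rw [← map_mul, ← map_mul, hcen z hz a])
  have hρ₁z₁ : ρ₁ z₁ ≠ 1 := by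
    intro h
    obtain ⟨y, hy, hy0⟩ := Submodule.exists_mem_ne_zero_of_ne_bot hY₁ne
    have hfixy : ρ z₁ y = y := by
      have h1 := hρ₁ z₁ ⟨y, hy⟩
      rw [h] at h1
      exact h1.symm
    have hyU := hY₁U hy
    rw [hU] at hyU
    obtain ⟨w, hw⟩ := hyU
    have hw' : ρ z₁ w = w + y := by
      rw [← hw]; simp
    have hpow : ∀ i : ℕ, (ρ z₁ ^ i) w = w + i • y := by
      intro i
      induction i with
      | zero => simp
      | succ i ih =>
        rw [pow_succ', Module.End.mul_apply, ih, map_add, map_nsmul, hw', hfixy, add_smul,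
          one_smul]
        abel
    have h1 := hpow (orderOf z₁)
    rw [← map_pow, pow_orderOf_eq_one, map_one, Module.End.one_apply] at h1
    have h2 : (orderOf z₁) • y = 0 := by
      have h1' : w + 0 = w + orderOf z₁ • y := by rw [add_zero]; exact h1
      exact (add_left_cancel h1').symm
    have h3 : ((orderOf z₁ : ℕ) : K) • y = 0 := by rw [Nat.cast_smul_eq_nsmul]; exact h2
    rcases smul_eq_zero.mp h3 with h4 | h4
    · exact hcast _ (orderOf_dvd_natCard z₁) h4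
    · exact hy0 h4
  obtain ⟨St, hSt⟩ : ∃ St : Subgroup (MulAut Q),
      ∀ τ, τ ∈ St ↔ ∀ z ∈ Subgroup.center Q, ρ₁ (τ z) = ρ₁ z := by
    refine ⟨{ carrier := {τ | ∀ z ∈ Subgroup.center Q, ρ₁ (τ z) = ρ₁ z}
              mul_mem' := ?_, one_mem' := ?_, inv_mem' := ?_ }, fun τ => Iff.rfl⟩
    · intro τ τ' h h' z hz
      rw [MulAut.mul_apply, h _ ((H3.fg_center_iff τ' z).mp hz), h' z hz]
    · intro z _; rw [MulAut.one_apply]
    · intro τ h z hz
      have := h _ ((H3.fg_center_iff τ⁻¹ z).mp hz)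
      rw [MulAut.apply_inv_self] at this
      exact this.symm
  have haZ : ∀ z ∈ Subgroup.center Q, ρ₁ (σ z) = ρ₁ z := by
    intro z hz; rw [(hσZ z).mpr hz]
  have haSt : σ ∈ St := (hSt σ).mpr haZ
  have hP0 : 0 < q := hq.pos
  have hFIX : ∀ v : W, (∀ z ∈ Subgroup.center Q, ∀ c : K, ρ₁ z = c • 1 → ρ z v = c • v) →
      Y v = v → v = 0 := by
    intro v _ hYv
    have hpow : ∀ i : ℕ, (Y ^ i) v = v := by
      intro i
      induction i with
      | zero => simp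
      | succ i ih => rw [pow_succ, Module.End.mul_apply, hYv, ih]
    have h1 := congrArg (fun f : Module.End K W => f v) hsum
    simp only [LinearMap.sum_apply, hpow, Finset.sum_const, Finset.card_range,
      LinearMap.zero_apply] at h1
    have h3 : ((q : ℕ) : K) • v = 0 := by rw [Nat.cast_smul_eq_nsmul]; exact h1
    rcases smul_eq_zero.mp h3 with h4 | h4
    · exact absurd h4 hqK
    · exact h4
  obtain ⟨R, hRmem⟩ : ∃ R : Subgroup Q, ∀ h, h ∈ R ↔ ∀ b, ρ₁ (h * b) = ρ₁ (b * h) := by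
    refine ⟨{ carrier := {h | ∀ b, ρ₁ (h * b) = ρ₁ (b * h)}
              mul_mem' := ?_, one_mem' := ?_, inv_mem' := ?_ }, fun h => Iff.rfl⟩
    · intro x y hx hy b
      show ρ₁ (x * y * b) = ρ₁ (b * (x * y))
      calc ρ₁ (x * y * b) = ρ₁ x * ρ₁ (y * b) := by rw [mul_assoc, map_mul]
        _ = ρ₁ x * ρ₁ (b * y) := by rw [hy b]
        _ = ρ₁ (x * b) * ρ₁ y := by rw [← map_mul, ← mul_assoc, map_mul]
        _ = ρ₁ (b * x) * ρ₁ y := by rw [hx b]
        _ = ρ₁ (b * (x * y)) := by rw [← map_mul, mul_assoc]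
    · intro b; show ρ₁ (1 * b) = ρ₁ (b * 1); rw [one_mul, mul_one]
    · intro x hx b
      show ρ₁ (x⁻¹ * b) = ρ₁ (b * x⁻¹)
      have h1 := hx (x⁻¹ * b * x⁻¹)
      have e1 : x * (x⁻¹ * b * x⁻¹) = b * x⁻¹ := by group
      have e2 : x⁻¹ * b * x⁻¹ * x = x⁻¹ * b := by group
      rw [e1, e2] at h1
      exact h1.symm
  have hZR : Subgroup.center Q ≤ R := by
    intro z hz; rw [hRmem]; intro b; rw [hcen z hz b]
  have hRs : ∀ r ∈ R, ∃ c : K, ρ₁ r = c • 1 := by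
    intro r hr
    exact H66.schur_scalar ρ₁ hirr (ρ₁ r)
      (fun b => by rw [← map_mul, ← map_mul, (hRmem r).mp hr b])
  have hcommR : ∀ x y : Q, x * y * x⁻¹ * y⁻¹ ∈ R := by
    intro x y
    have := hcl x y
    rw [commutatorElement_def] at this
    exact hZR this
  have hnd : ∀ x : Q, (∀ y : Q, ρ₁ (y * x * y⁻¹ * x⁻¹) = 1) → x ∈ R := by
    intro x hx
    rw [hRmem]; intro b
    have e : b * x = (b * x * b⁻¹ * x⁻¹) * (x * b) := by group
    have h1 : ρ₁ (b * x) = ρ₁ (x * b) := by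
      rw [e, map_mul ρ₁ (b * x * b⁻¹ * x⁻¹) (x * b), hx b, one_mul]
    exact h1.symm
  have hRnorm : R.Normal := by
    constructor
    intro r hr g
    have e : g * r * g⁻¹ = (g * r * g⁻¹ * r⁻¹) * r := by group
    rw [e]; exact R.mul_mem (hcommR g r) hr
  have hx₁R : x₁ ∉ R := by
    intro h
    apply hρ₁z₁
    have h1 := (hRmem x₁).mp h b₁
    rw [hz₁, commutatorElement_def]
    have e : x₁ * b₁ * x₁⁻¹ * b₁⁻¹ = (x₁ * b₁) * (x₁⁻¹ * b₁⁻¹) := by group
    rw [e, map_mul ρ₁ (x₁ * b₁) (x₁⁻¹ * b₁⁻¹), h1, ← map_mul]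
    have e2 : b₁ * x₁ * (x₁⁻¹ * b₁⁻¹) = 1 := by group
    rw [e2, map_one]
  have hRtop : R ≠ ⊤ := fun h => hx₁R (h ▸ Subgroup.mem_top x₁)
  obtain ⟨d, hd⟩ : ∃ d, d = Module.finrank K ↥Y₁ := ⟨_, rfl⟩
  have hd2 : d ^ 2 = R.index := by
    rw [hd]; exact H66.finrank_sq_eq_index ρ₁ R hirr hcommR hRs hnd
  have hStR : ∀ τ ∈ St, ∀ r, r ∈ R → τ r ∈ R := by
    intro τ hτ r hr
    rw [hRmem]; intro b
    obtain ⟨b', rfl⟩ : ∃ b', b = τ b' := ⟨τ⁻¹ b, by rw [MulAut.apply_inv_self]⟩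
    rw [← map_mul, ← map_mul]
    have e : r * b' = ⁅r, b'⁆ * (b' * r) := by rw [commutatorElement_def]; group
    have h1 : ρ₁ ⁅r, b'⁆ = 1 := by
      have h2 := (hRmem r).mp hr b'
      rw [commutatorElement_def]
      have e3 : r * b' * r⁻¹ * b'⁻¹ = (r * b') * (r⁻¹ * b'⁻¹) := by group
      rw [e3, map_mul ρ₁ (r * b') (r⁻¹ * b'⁻¹), h2, ← map_mul]
      have e4 : b' * r * (r⁻¹ * b'⁻¹) = 1 := by group
      rw [e4, map_one]
    calc ρ₁ (τ (r * b')) = ρ₁ (τ ⁅r, b'⁆ * τ (b' * r)) := by rw [← map_mul τ, ← e]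
      _ = ρ₁ (τ ⁅r, b'⁆) * ρ₁ (τ (b' * r)) := map_mul ρ₁ _ _
      _ = ρ₁ (τ (b' * r)) := by rw [(hSt τ).mp hτ _ (hcl r b'), h1, one_mul]
  have haR : ∀ r, r ∈ R ↔ σ r ∈ R := by
    intro r
    refine ⟨hStR σ haSt r, fun h => ?_⟩
    have := hStR σ⁻¹ (St.inv_mem haSt) _ h
    rwa [MulAut.inv_apply_self] at this
  have haiSt : ∀ i, σ ^ i ∈ St := fun i => St.pow_mem haSt i
  have hfreeR : ∀ h : Q, h ∉ R → ∀ i, 0 < i → i < q → (σ ^ i) h * h⁻¹ ∉ R := by
    intro h hh i hi0 hi hmem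
    apply hh
    exact H3.fg_freeR ρ₁ hcl R hRmem (σ ^ i) ((hSt _).mp (haiSt i)) (hS1 i hi0 hi) h hmem
  have hμa : ∀ r ∈ R, ρ₁ (σ r) = ρ₁ r := by
    refine H3.fg_mu_inv hq 0 ρ σ (by rw [zero_add, pow_one]; exact hσ) Y hY
      (by rw [zero_add, pow_one]; exact hYq) Y₁ ρ₁ hρ₁ hY₁ne R hRs haR haZ ?_ hFIX
    intro x hx
    rw [pow_zero, pow_one] at hx
    exact hβU x hx
  obtain ⟨g, g', hgg', hg'g, hgP, hint⟩ := H38.fg_intertwiner ρ₁ hirr R hcommR hRs hnd hcast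
    σ q hP0 hσ hμa (by
      intro h hh
      have := hfreeR h hh 1 Nat.one_pos hq.one_lt
      rwa [pow_one] at this)
  have hsub_ne : Y₁.subtype ≠ 0 := by
    intro h
    obtain ⟨y, hy, hy0⟩ := Submodule.exists_mem_ne_zero_of_ne_bot hY₁ne
    apply hy0
    have := congrArg (fun f : ↥Y₁ →ₗ[K] W => f ⟨y, hy⟩) h
    simpa using this
  obtain ⟨f, κ, hf0, hfc, hκ, hXf⟩ := Lib.Lead.fg_hom_eig ρ ρ₁ σ Y q hP0 hYq hY g g' hgg' hg'g
    hgP hint Y₁.subtype hsub_ne (by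
      intro h
      apply LinearMap.ext
      intro y
      simp only [LinearMap.comp_apply, Submodule.subtype_apply]
      exact (hρ₁ h y).symm)
  have hfc' : ∀ (h : Q) (y : ↥Y₁), ρ h (f y) = f (ρ₁ h y) := by
    intro h y
    have := congrArg (fun F : ↥Y₁ →ₗ[K] W => F y) (hfc h)
    simpa using this
  have hfinj : ∀ y : ↥Y₁, f y = 0 → y = 0 := by
    intro y hy
    rcases hirr (LinearMap.ker f) (by
      intro h y hy
      rw [LinearMap.mem_ker] at hy ⊢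
      rw [← hfc', hy, map_zero]) with h | h
    · have : y ∈ LinearMap.ker f := hy
      rw [h] at this
      exact (Submodule.mem_bot K).mp this
    · exfalso; apply hf0
      exact LinearMap.ker_eq_top.mp h
  have hκ0 : κ ≠ 0 := by
    intro h; rw [h, zero_pow (by omega)] at hκ; exact zero_ne_one hκ
  obtain ⟨g₁, hg₁⟩ : ∃ g₁ : Module.End K ↥Y₁, g₁ = κ • g := ⟨_, rfl⟩
  obtain ⟨g₁', hg₁'⟩ : ∃ g₁' : Module.End K ↥Y₁, g₁' = κ⁻¹ • g' := ⟨_, rfl⟩
  have hg₁g₁' : g₁ * g₁' = 1 := by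
    rw [hg₁, hg₁', smul_mul_smul_comm, mul_inv_cancel₀ hκ0, hgg', one_smul]
  have hg₁'g₁ : g₁' * g₁ = 1 := by
    rw [hg₁, hg₁', smul_mul_smul_comm, inv_mul_cancel₀ hκ0, hg'g, one_smul]
  have hg₁P : g₁ ^ q = 1 := by rw [hg₁, smul_pow, hκ, hgP, one_smul]
  have hint₁ : ∀ h, g₁ * ρ₁ h = ρ₁ (σ h) * g₁ := by
    intro h; rw [hg₁, smul_mul_assoc, hint, mul_smul_comm]
  have hfix₁ : ∀ y, g₁ y = y → y = 0 := by
    intro y hy
    apply hfinj
    apply hFIX
    · intro z hz c hc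
      rw [hfc', hc, LinearMap.smul_apply, Module.End.one_apply, map_smul]
    · have h1 := congrArg (fun F : ↥Y₁ →ₗ[K] W => F y) hXf
      simp only [LinearMap.comp_apply, LinearMap.smul_apply] at h1
      rw [h1, ← map_smul]
      have : κ • g y = g₁ y := by rw [hg₁]; rfl
      rw [this, hy]
  obtain ⟨C, hC⟩ : ∃ C : Submodule K (Module.End K ↥Y₁), ∀ B, B ∈ C ↔ B * g₁ = g₁ * B := by
    refine ⟨{ carrier := {B | B * g₁ = g₁ * B}
              add_mem' := ?_, zero_mem' := ?_, smul_mem' := ?_ }, fun B => Iff.rfl⟩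
    · intro B B' h h'
      show (B + B') * g₁ = g₁ * (B + B')
      rw [add_mul, mul_add, h, h']
    · show (0 : Module.End K ↥Y₁) * g₁ = g₁ * 0
      rw [zero_mul, mul_zero]
    · intro c B h
      show (c • B) * g₁ = g₁ * (c • B)
      rw [smul_mul_assoc, mul_smul_comm, h]
  haveI := hRnorm
  haveI : Fintype (Q ⧸ R) := Fintype.ofFinite _
  have hmapR : R.map (σ : Q →* Q) = R := by
    apply le_antisymm
    · rintro _ ⟨x, hx, rfl⟩; exact (haR x).mp hx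
    · intro x hx
      refine ⟨σ.symm x, (haR _).mpr (by rw [MulEquiv.apply_symm_apply]; exact hx), ?_⟩
      exact MulEquiv.apply_symm_apply σ x
  obtain ⟨a', ha'⟩ : ∃ a' : MulAut (Q ⧸ R),
      ∀ g, a' (QuotientGroup.mk' R g) = QuotientGroup.mk' R (σ g) :=
    ⟨QuotientGroup.congr R R σ hmapR, fun g => rfl⟩
  have hiter : ∀ (i : ℕ) (g : Q),
      (⇑a')^[i] (QuotientGroup.mk' R g) = QuotientGroup.mk' R ((σ ^ i) g) := by
    intro i
    induction i with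
    | zero => intro g; simp
    | succ i ih => intro g; rw [Function.iterate_succ_apply', ih, ha', H3.fg_pow_succ_apply]
  obtain ⟨T', -, hcard, hT'⟩ := H3.fg_orbit_reps (⇑a') q hP0 (Finset.univ.erase 1) (by
      intro x hx
      rw [Finset.mem_erase] at hx ⊢
      refine ⟨fun h => hx.1 ?_, Finset.mem_univ _⟩
      apply a'.injective
      rw [h, map_one]) (by
      intro x _
      obtain ⟨g, rfl⟩ := QuotientGroup.mk'_surjective _ x
      rw [hiter, hσ, MulAut.one_apply]) (by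
      intro x hx i hi0 hi h
      rw [Finset.mem_erase] at hx
      obtain ⟨g, rfl⟩ := QuotientGroup.mk'_surjective _ x
      rw [hiter] at h
      have hg : g ∉ R := fun hg => hx.1 ((QuotientGroup.eq_one_iff g).mpr hg)
      apply hfreeR g hg i hi0 hi
      apply (QuotientGroup.eq_one_iff (N := R) _).mp
      show QuotientGroup.mk' R ((σ ^ i) g * g⁻¹) = 1
      rw [map_mul, map_inv, h, mul_inv_cancel])
  rw [Finset.card_erase_of_mem (Finset.mem_univ _), Finset.card_univ,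
    ← Nat.card_eq_fintype_card, ← Subgroup.index_eq_card, ← hd2] at hcard
  obtain ⟨T, hTdef⟩ : ∃ T : Finset Q, T = T'.image Quotient.out := ⟨_, rfl⟩
  have hT : ∀ h : Q, h ∉ R → ∃ t ∈ T, ∃ i, i < q ∧ ((σ ^ i) t)⁻¹ * h ∈ R := by
    intro h hh
    have hmem : QuotientGroup.mk' R h ∈ Finset.univ.erase (1 : Q ⧸ R) := by
      rw [Finset.mem_erase]
      exact ⟨fun h1 => hh ((QuotientGroup.eq_one_iff h).mp h1), Finset.mem_univ _⟩
    obtain ⟨t', ht', i, hi, hti⟩ := hT' _ hmem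
    refine ⟨Quotient.out t', by rw [hTdef]; exact Finset.mem_image_of_mem _ ht', i, hi, ?_⟩
    have e : t' = QuotientGroup.mk' R (Quotient.out t') := (QuotientGroup.out_eq' t').symm
    rw [e, hiter] at hti
    exact QuotientGroup.eq.mp hti.symm
  have hCbound := H38.fg_comm_bound ρ₁ hirr σ q hP0 hqK g₁ g₁' hg₁g₁' hg₁'g₁ hg₁P hint₁ R hRs
    T hT C (fun B hB => (hC B).mp hB)
  have hCdiag := H92.fg_diag_bound q hP0 hqK g₁ hg₁P hfix₁ C (fun B hB => (hC B).mpr hB)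
  have hTcard : T.card ≤ T'.card := by rw [hTdef]; exact Finset.card_image_le
  have hd2' : 2 ≤ d := by
    by_contra hcon
    have hR1 : R.index ≠ 1 := fun h => hRtop (Subgroup.index_eq_one.mp h)
    have hR0 : R.index ≠ 0 := Subgroup.index_ne_zero_of_finite
    have h01 : d = 0 ∨ d = 1 := by omega
    rcases h01 with h | h
    · rw [h] at hd2; exact hR0 (by simpa using hd2.symm)
    · rw [h] at hd2; exact hR1 (by simpa using hd2.symm)
  have hdq : d + 1 = q := by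
    refine te_lin_arith hq hd2' (t := T'.card) (c := Module.finrank K C) hcard (by omega) ?_
    rw [hd]; exact hCdiag
  have hdvd : d ∣ r ^ e := by
    have h1 : R.index ∣ r ^ e := he ▸ Subgroup.index_dvd_card R
    exact (Dvd.intro_left (d ^ 1) (by rw [← pow_succ]; exact hd2)).trans h1
  obtain ⟨m, -, hm⟩ := (Nat.dvd_prime_pow hr).mp hdvd
  exact ⟨m, by rw [← hm, hdq]⟩

end Cfsg.Agent.H92
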