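import Mathlib
import Cfsg.Agent.H92.TeLin
import Cfsg.Agent.H66.HHLin
import Cfsg.Agent.H58.FzDefs
import Cfsg.Agent.H58.FrobAct
import Cfsg.Agent.H58.Char

/-!
# Piece S4306-TE: the tool statement `TE` (from the linear statement `te_lin`)
-/

set_option autoImplicit false
set_option linter.style.haveILetI false
set_option linter.unusedVariables false
set_option linter.unusedSectionVars false

namespace Cfsg.Agent.H92.Fz

open scoped TensorProduct commutatorElement

universe u

set_option maxHeartbeats 800000 in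
/-- Abstract form of `TE`: the module is a finite elementary abelian `v`-group `M` on which the
`r`-group `Q` acts faithfully, `η` an automorphism of `M` without fixed points compatible with an
automorphism `σ` of `Q` of prime order `q` with `C_Q(σ) = Z(Q)`. -/
theorem te_abstract {Q : Type*} [Group Q] [Finite Q] {M : Type*} [CommGroup M] [Finite M]
    {q r v : ℕ} (hq : q.Prime) (hr : r.Prime) [Fact v.Prime] (hqr : q ≠ r) (hvr : v ≠ r)
    (hvq : v ≠ q) (hM : ∀ m : M, m ^ v = 1) (hQ : IsPGroup r Q)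
    (σ : MulAut Q) (hσ : σ ^ q = 1)
    (hcl : ∀ x y : Q, ⁅x, y⁆ ∈ Subgroup.center Q)
    (hnab : ∃ x y : Q, x * y ≠ y * x)
    (hσZ : ∀ g : Q, σ g = g ↔ g ∈ Subgroup.center Q)
    (c : Q →* MulAut M) (hc : Function.Injective c) (η : MulAut M)
    (hη : ∀ h, η * c h = c (σ h) * η) (hηq : η ^ q = 1) (hfix : ∀ m, η m = m → m = 1) :
    ∃ n : ℕ, q = r ^ n + 1 := by
  classical
  have hv : v.Prime := Fact.out
  have hexp' : ∀ a : Additive M, v • a = 0 := fun a => by
    have := hM (Additive.toMul a)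
    exact congrArg Additive.ofMul this
  haveI : Module (ZMod v) (Additive M) := AddCommGroup.zmodModule hexp'
  obtain ⟨T, hTdef⟩ : ∃ T : Q →* Module.End (ZMod v) (Additive M), T = H66.zmodLinHom v c :=
    ⟨_, rfl⟩
  have hT : ∀ e (m : M), T e (Additive.ofMul m) = Additive.ofMul (c e m) := by
    intro e m; rw [hTdef]; rfl
  obtain ⟨Tη, hTηdef⟩ : ∃ Tη : Module.End (ZMod v) (Additive M),
      Tη = H66.zmodLinHom v (MonoidHom.id (MulAut M)) η := ⟨_, rfl⟩
  have hTη : ∀ m : M, Tη (Additive.ofMul m) = Additive.ofMul (η m) := by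
    intro m; rw [hTηdef]; rfl
  have hTe : ∀ e, T e = H66.zmodLinHom v (MonoidHom.id (MulAut M)) (c e) := by
    intro e; rw [hTdef]; rfl
  have hcastK : ∀ m : ℕ, m.Prime → v ≠ m → (m : AlgebraicClosure (ZMod v)) ≠ 0 := by
    intro m hm hvm h
    rw [CharP.cast_eq_zero_iff (AlgebraicClosure (ZMod v)) v] at h
    exact hvm ((Nat.prime_dvd_prime_iff_eq hv hm).mp h)
  obtain ⟨ρ, hρ⟩ : ∃ ρ : Q →* Module.End (AlgebraicClosure (ZMod v))
        (AlgebraicClosure (ZMod v) ⊗[ZMod v] Additive M),
      ρ = ((Module.End.baseChangeHom (ZMod v) (AlgebraicClosure (ZMod v)) (Additive M) :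
          Module.End (ZMod v) (Additive M) →ₐ[ZMod v]
            Module.End (AlgebraicClosure (ZMod v))
              (AlgebraicClosure (ZMod v) ⊗[ZMod v] Additive M)) :
          Module.End (ZMod v) (Additive M) →*
            Module.End (AlgebraicClosure (ZMod v))
              (AlgebraicClosure (ZMod v) ⊗[ZMod v] Additive M)).comp T :=
    ⟨_, rfl⟩
  have hρapply : ∀ e, ρ e =
      Module.End.baseChangeHom (ZMod v) (AlgebraicClosure (ZMod v)) (Additive M) (T e) := by
    intro e; rw [hρ]; rfl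
  have hρinj : Function.Injective ρ := by
    intro a b hab
    rw [hρapply, hρapply] at hab
    have h1 : T a = T b :=
      LinearMap.baseChangeHom_injective (ZMod v) (Additive M) (AlgebraicClosure (ZMod v)) hab
    apply hc
    ext m
    have h2 := congrArg (fun f : Module.End (ZMod v) (Additive M) => f (Additive.ofMul m)) h1
    simp only [hT] at h2
    exact congrArg Additive.toMul h2
  obtain ⟨Y, hYdef⟩ : ∃ Y : Module.End (AlgebraicClosure (ZMod v))
        (AlgebraicClosure (ZMod v) ⊗[ZMod v] Additive M),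
      Y = Module.End.baseChangeHom (ZMod v) (AlgebraicClosure (ZMod v)) (Additive M) Tη :=
    ⟨_, rfl⟩
  have hY : ∀ h, Y * ρ h = ρ (σ h) * Y := by
    intro h
    rw [hYdef, hρapply, hρapply, ← map_mul, ← map_mul]
    congr 1
    rw [hTe, hTe, hTηdef, ← map_mul, ← map_mul, hη]
  have hYq : Y ^ q = 1 := by
    rw [hYdef, ← map_pow, hTηdef, ← map_pow, hηq, map_one, map_one]
  have hTpow : ∀ i (m : M), (Tη ^ i) (Additive.ofMul m) = Additive.ofMul ((η ^ i) m) := by
    intro i
    induction i with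
    | zero => intro m; rfl
    | succ i ih =>
      intro m
      rw [pow_succ', pow_succ', Module.End.mul_apply, ih, hTη]
      rfl
  have hprod : ∀ m : M, ∏ i ∈ Finset.range q, (η ^ i) m = 1 := by
    intro m
    apply hfix
    rw [map_prod]
    have h1 : ∀ i ∈ Finset.range q, η ((η ^ i) m) = (η ^ (i + 1)) m := by
      intro i _; rw [pow_succ', MulAut.mul_apply]
    rw [Finset.prod_congr rfl h1]
    have h2 := Finset.prod_range_succ' (fun i => (η ^ i) m) q
    have h3 := Finset.prod_range_succ (fun i => (η ^ i) m) q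
    rw [h3] at h2
    simp only [hηq, pow_zero] at h2
    exact (mul_right_cancel h2).symm
  have hTsum : ∑ i ∈ Finset.range q, Tη ^ i = 0 := by
    apply LinearMap.ext
    intro a
    rw [← ofMul_toMul a, LinearMap.sum_apply, LinearMap.zero_apply]
    rw [Finset.sum_congr rfl (fun i _ => hTpow i (Additive.toMul a)), ← ofMul_prod, hprod]
    rfl
  have hsum : ∑ i ∈ Finset.range q, Y ^ i = 0 := by
    rw [hYdef]
    simp_rw [← map_pow]
    rw [← map_sum, hTsum, map_zero]
  exact te_lin hq hr hqr hQ (hcastK r hr hvr) (hcastK q hq hvq) σ hσ hcl hnab hσZ ρ hρinj Y hY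
    hYq hsum

theorem te_holds {X : Type u} [Group X] [Finite X] : Cfsg.Agent.H58.Fz.TE X := by
  intro V Γ y q r v hq hr hv hqr hvr hvq hVc hVe hΓ hΓV hyV hyΓ hyq hfaith hnab hcl hσZ hfix
  haveI : Fact v.Prime := ⟨hv⟩
  letI : CommGroup ↥V := { (inferInstance : Group ↥V) with
    mul_comm := fun a b => Subtype.ext (hVc a a.2 b b.2) }
  have hσpow : ∀ (U : Subgroup X) (hU : y ∈ Subgroup.normalizer (U : Set X)) (i : ℕ) (u : ↥U),
      (((H58.conjRestrict U y hU) ^ i) u : X) = y ^ i * u * (y ^ i)⁻¹ := by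
    intro U hU i
    induction i with
    | zero => intro u; simp
    | succ i ih =>
      intro u
      rw [pow_succ', MulAut.mul_apply]
      show y * (((H58.conjRestrict U y hU) ^ i) u : X) * y⁻¹ = _
      rw [ih, pow_succ']
      group
  have hpow1 : ∀ (U : Subgroup X) (hU : y ∈ Subgroup.normalizer (U : Set X)),
      (H58.conjRestrict U y hU) ^ q = 1 := by
    intro U hU
    apply MulEquiv.ext
    intro u
    apply Subtype.ext
    rw [hσpow, hyq]
    simp
  refine te_abstract (Q := ↥Γ) (M := ↥V) hq hr hqr hvr hvq ?_ hΓ (H58.conjRestrict Γ y hyΓ)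
    (hpow1 Γ hyΓ) ?_ ?_ ?_ (H58.FrobAct.conjAut V Γ hΓV) ?_ (H58.conjRestrict V y hyV) ?_
    (hpow1 V hyV) ?_
  · intro m
    apply Subtype.ext
    rw [Subgroup.coe_pow]
    exact hVe m m.2
  · intro a b
    rw [Subgroup.mem_center_iff]
    intro g
    apply Subtype.ext
    have := hcl a a.2 b b.2 g g.2
    simp only [commutatorElement_def, Subgroup.coe_mul, Subgroup.coe_inv]
    exact this.symm
  · obtain ⟨a, ha, b, hb, hab⟩ := hnab
    exact ⟨⟨a, ha⟩, ⟨b, hb⟩, fun h => hab (congrArg Subtype.val h)⟩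
  · intro g
    rw [Subgroup.mem_center_iff]
    constructor
    · intro h1 h
      have h2 : y * g * y⁻¹ = g := congrArg Subtype.val h1
      have h3 : y * (g : X) = g * y := by
        calc y * (g : X) = (y * g * y⁻¹) * y := by group
          _ = g * y := by rw [h2]
      apply Subtype.ext
      exact ((hσZ g g.2).mp h3 h h.2).symm
    · intro h1
      apply Subtype.ext
      show y * (g : X) * y⁻¹ = g
      have h3 : y * (g : X) = g * y := by
        apply (hσZ g g.2).mpr
        intro h hh
        exact (congrArg Subtype.val (h1 ⟨h, hh⟩)).symm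
      rw [h3]; group
  · intro a b hab
    have h1 : H58.FrobAct.conjAut V Γ hΓV (a * b⁻¹) = 1 := by
      rw [map_mul, map_inv, hab, mul_inv_cancel]
    rw [H58.FrobAct.conjAut_eq_one_iff] at h1
    have h2 : ((a * b⁻¹ : ↥Γ) : X) ∈ Γ ⊓ Subgroup.centralizer (V : Set X) :=
      ⟨(a * b⁻¹ : ↥Γ).2, h1⟩
    rw [hfaith, Subgroup.mem_bot] at h2
    have h3 : a * b⁻¹ = 1 := Subtype.ext h2
    exact mul_inv_eq_one.mp h3
  · intro h
    apply MulEquiv.ext
    intro u
    apply Subtype.ext
    show y * ((h : X) * u * (h : X)⁻¹) * y⁻¹ = (y * h * y⁻¹) * (y * u * y⁻¹) * (y * h * y⁻¹)⁻¹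
    group
  · intro m hm
    have h2 : y * m * y⁻¹ = m := congrArg Subtype.val hm
    have h3 : y * (m : X) = m * y := by
      calc y * (m : X) = (y * m * y⁻¹) * y := by group
        _ = m * y := by rw [h2]
    exact Subtype.ext (hfix m m.2 h3)

end Cfsg.Agent.H92.Fz
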