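import Mathlib
import Cfsg.Agent.H78.StSpDefs

/-!
# Weyl group of type `C_{m+1}` on positions: commutes with `Fin.rev`, contains `Fin.revPerm`,
has a sign character (helper92, for helper78's S2545).
-/

set_option autoImplicit false

namespace Cfsg.Agent.H92.StSp

open Cfsg.Agent.H78.StSp

theorem pE_val (m : ℕ) (i : Fin (m + 1)) : (pE m i).val = i.val := by
  simp [pE]

theorem pF_val (m : ℕ) (i : Fin (m + 1)) : (pF m i).val = m + 1 + (m - i.val) := by
  simp [pF]
  omega

theorem pF_eq_rev (m : ℕ) (i : Fin (m + 1)) : pF m i = Fin.rev (pE m i) := by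
  apply Fin.ext
  rw [pF_val, Fin.val_rev, pE_val]
  have := i.isLt
  omega

theorem pE_ne_pF (m : ℕ) (i j : Fin (m + 1)) : pE m i ≠ pF m j := by
  intro h
  have := congrArg Fin.val h
  rw [pE_val, pF_val] at this
  have := i.isLt
  omega

theorem pE_inj (m : ℕ) {i j : Fin (m + 1)} (h : pE m i = pE m j) : i = j := by
  have := congrArg Fin.val h
  rw [pE_val, pE_val] at this
  exact Fin.ext this

theorem pF_inj (m : ℕ) {i j : Fin (m + 1)} (h : pF m i = pF m j) : i = j := by
  have := congrArg Fin.val h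
  rw [pF_val, pF_val] at this
  have := i.isLt
  have := j.isLt
  exact Fin.ext (by omega)

theorem swap_apply_rev {n : ℕ} (a b x : Fin n) :
    Equiv.swap a b (Fin.rev x) = Fin.rev (Equiv.swap (Fin.rev a) (Fin.rev b) x) := by
  rw [← Fin.rev_injective.swap_apply, Fin.rev_rev, Fin.rev_rev]

theorem sgen_none_apply_rev (m : ℕ) (c : Fin ((m + 1) + (m + 1))) :
    sgen m none (Fin.rev c) = Fin.rev (sgen m none c) := by
  show Equiv.swap (pE m (Fin.last m)) (pF m (Fin.last m)) (Fin.rev c) =
    Fin.rev (Equiv.swap (pE m (Fin.last m)) (pF m (Fin.last m)) c)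
  rw [swap_apply_rev, pF_eq_rev, Fin.rev_rev, Equiv.swap_comm]

theorem sgen_some_apply_rev (m : ℕ) (k : Fin m) (c : Fin ((m + 1) + (m + 1))) :
    sgen m (some k) (Fin.rev c) = Fin.rev (sgen m (some k) c) := by
  have hcomm : Equiv.swap (pE m k.castSucc) (pE m k.succ) *
      Equiv.swap (pF m k.succ) (pF m k.castSucc) =
      Equiv.swap (pF m k.succ) (pF m k.castSucc) *
      Equiv.swap (pE m k.castSucc) (pE m k.succ) := by
    apply Equiv.Perm.Disjoint.commute
    apply Equiv.Perm.disjoint_swap_swap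
    have h1 : k.castSucc ≠ k.succ := (Fin.castSucc_lt_succ).ne
    simp only [List.nodup_cons, List.mem_cons, List.not_mem_nil, or_false, not_or,
      List.nodup_nil, and_true]
    refine ⟨⟨fun h => h1 (pE_inj m h), pE_ne_pF m _ _, pE_ne_pF m _ _⟩,
      ⟨pE_ne_pF m _ _, pE_ne_pF m _ _⟩, fun h => h1 (pF_inj m h).symm, not_false⟩
  show (Equiv.swap (pE m k.castSucc) (pE m k.succ) *
      Equiv.swap (pF m k.succ) (pF m k.castSucc)) (Fin.rev c) = Fin.rev
      ((Equiv.swap (pE m k.castSucc) (pE m k.succ) *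
      Equiv.swap (pF m k.succ) (pF m k.castSucc)) c)
  rw [Equiv.Perm.mul_apply, swap_apply_rev, swap_apply_rev]
  congr 1
  rw [pF_eq_rev, pF_eq_rev, Fin.rev_rev, Fin.rev_rev, ← pF_eq_rev, ← pF_eq_rev,
    Equiv.swap_comm (pF m k.castSucc), Equiv.swap_comm (pE m k.succ),
    ← Equiv.Perm.mul_apply, ← hcomm]

theorem sgen_apply_rev (m : ℕ) (o : Option (Fin m)) (c : Fin ((m + 1) + (m + 1))) :
    sgen m o (Fin.rev c) = Fin.rev (sgen m o c) := by
  cases o with
  | none => exact sgen_none_apply_rev m c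
  | some k => exact sgen_some_apply_rev m k c

theorem wsp_rev (m : ℕ) (w : Equiv.Perm (Fin ((m+1)+(m+1)))) (hw : w ∈ WSp m)
    (c : Fin ((m+1)+(m+1))) : w (Fin.rev c) = Fin.rev (w c) := by
  have key : ∀ w ∈ WSp m, ∀ c, w (Fin.rev c) = Fin.rev (w c) := by
    intro w hw
    refine Subgroup.closure_induction (p := fun w _ => ∀ c, w (Fin.rev c) = Fin.rev (w c))
      ?_ ?_ ?_ ?_ hw
    · rintro _ ⟨o, rfl⟩ c
      exact sgen_apply_rev m o c
    · intro c
      rfl
    · intro x y _ _ hx hy c
      rw [Equiv.Perm.mul_apply, hy, hx, Equiv.Perm.mul_apply]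
    · intro x _ hx c
      rw [Equiv.Perm.inv_eq_iff_eq, hx]
      congr 1
      exact (Equiv.apply_symm_apply x c).symm
  exact key w hw c

/-- The reflection `e_i ↔ f_i` lies in the Weyl group. -/
theorem tswap_mem (m : ℕ) (i : Fin (m + 1)) : Equiv.swap (pE m i) (pF m i) ∈ WSp m := by
  induction i using Fin.reverseInduction with
  | last => exact Subgroup.subset_closure ⟨none, rfl⟩
  | cast k ih =>
    have hs : sgen m (some k) ∈ WSp m := Subgroup.subset_closure ⟨some k, rfl⟩
    have h1 : sgen m (some k) (pE m k.succ) = pE m k.castSucc := by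
      show (Equiv.swap (pE m k.castSucc) (pE m k.succ) *
        Equiv.swap (pF m k.succ) (pF m k.castSucc)) _ = _
      rw [Equiv.Perm.mul_apply, Equiv.swap_apply_of_ne_of_ne (pE_ne_pF m _ _) (pE_ne_pF m _ _),
        Equiv.swap_apply_right]
    have h2 : sgen m (some k) (pF m k.succ) = pF m k.castSucc := by
      show (Equiv.swap (pE m k.castSucc) (pE m k.succ) *
        Equiv.swap (pF m k.succ) (pF m k.castSucc)) _ = _
      rw [Equiv.Perm.mul_apply, Equiv.swap_apply_left,
        Equiv.swap_apply_of_ne_of_ne (pE_ne_pF m _ _).symm (pE_ne_pF m _ _).symm]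
    rw [← h1, ← h2, Equiv.swap_apply_apply]
    exact mul_mem (mul_mem hs ih) (inv_mem hs)

/-- Partial products of the commuting reflections `e_i ↔ f_i`, from the middle outwards. -/
noncomputable def Rrev (m : ℕ) : ℕ → Equiv.Perm (Fin ((m + 1) + (m + 1)))
  | 0 => 1
  | j + 1 => Equiv.swap (pE m ⟨m - j, by omega⟩) (pF m ⟨m - j, by omega⟩) * Rrev m j

theorem Rrev_mem (m j : ℕ) : Rrev m j ∈ WSp m := by
  induction j with
  | zero => exact one_mem _
  | succ j ih => exact mul_mem (tswap_mem m _) ih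

theorem Rrev_apply (m j : ℕ) (hj : j ≤ m + 1) (c : Fin ((m + 1) + (m + 1))) :
    Rrev m j c = if (m + 1 ≤ c.val + j ∧ c.val < m + 1 + j) then Fin.rev c else c := by
  induction j generalizing c with
  | zero =>
    rw [if_neg (by omega)]
    rfl
  | succ j ih =>
    show Equiv.swap _ _ (Rrev m j c) = _
    rw [ih (by omega) c]
    have hcl := c.isLt
    by_cases hc : m + 1 ≤ c.val + j ∧ c.val < m + 1 + j
    · rw [if_pos hc, Equiv.swap_apply_of_ne_of_ne, if_pos (by omega)]
      · intro h
        have := congrArg Fin.val h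
        rw [Fin.val_rev, pE_val] at this
        simp only at this
        omega
      · intro h
        have := congrArg Fin.val h
        rw [Fin.val_rev, pF_val] at this
        simp only at this
        omega
    · rw [if_neg hc]
      by_cases h1 : c.val = m - j
      · have hce : c = pE m ⟨m - j, by omega⟩ := Fin.ext (by rw [pE_val]; exact h1)
        rw [if_pos (by omega)]
        conv_lhs => rw [hce]
        rw [Equiv.swap_apply_left, pF_eq_rev, ← hce]
      · by_cases h2 : c.val = m + 1 + j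
        · have hce : c = pF m ⟨m - j, by omega⟩ :=
            Fin.ext (by rw [pF_val]; simp only; omega)
          rw [if_pos (by omega)]
          conv_lhs => rw [hce]
          rw [Equiv.swap_apply_right]
          conv_rhs => rw [hce]
          rw [pF_eq_rev, Fin.rev_rev]
        · rw [Equiv.swap_apply_of_ne_of_ne, if_neg (by omega)]
          · intro h
            have := congrArg Fin.val h
            rw [pE_val] at this
            exact h1 this
          · intro h
            have := congrArg Fin.val h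
            rw [pF_val] at this
            simp only at this
            omega

theorem revPerm_mem_wsp (m : ℕ) :
    (Fin.revPerm : Equiv.Perm (Fin ((m+1)+(m+1)))) ∈ WSp m := by
  have h : (Fin.revPerm : Equiv.Perm (Fin ((m+1)+(m+1)))) = Rrev m (m + 1) := by
    apply Equiv.ext
    intro c
    rw [Rrev_apply m (m + 1) le_rfl c, if_pos ⟨by omega, by have := c.isLt; omega⟩]
    rfl
  rw [h]
  exact Rrev_mem m (m + 1)

/-- The index `i` with `c ∈ {e_i, f_i}`. -/
def pidx (m : ℕ) (c : Fin ((m + 1) + (m + 1))) : Fin (m + 1) :=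
  if h : c.val < m + 1 then ⟨c.val, h⟩
  else ⟨(m + 1) + (m + 1) - 1 - c.val, by have := c.isLt; omega⟩

theorem pidx_pE (m : ℕ) (i : Fin (m + 1)) : pidx m (pE m i) = i := by
  unfold pidx
  rw [dif_pos (by rw [pE_val]; exact i.isLt)]
  exact Fin.ext (pE_val m i)

theorem pidx_rev (m : ℕ) (c : Fin ((m + 1) + (m + 1))) : pidx m (Fin.rev c) = pidx m c := by
  unfold pidx
  have := c.isLt
  by_cases h : c.val < m + 1
  · rw [dif_pos h, dif_neg (by rw [Fin.val_rev]; omega)]
    apply Fin.ext
    simp only [Fin.val_rev]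
    omega
  · rw [dif_neg h, dif_pos (by rw [Fin.val_rev]; omega)]
    apply Fin.ext
    simp only [Fin.val_rev]
    omega

theorem eq_pE_or (m : ℕ) (c : Fin ((m + 1) + (m + 1))) :
    c = pE m (pidx m c) ∨ c = Fin.rev (pE m (pidx m c)) := by
  unfold pidx
  have := c.isLt
  by_cases h : c.val < m + 1
  · left
    rw [dif_pos h]
    apply Fin.ext
    rw [pE_val]
  · right
    rw [dif_neg h]
    apply Fin.ext
    rw [Fin.val_rev, pE_val]
    simp only
    omega

theorem pidx_wsp (m : ℕ) (w : Equiv.Perm (Fin ((m+1)+(m+1)))) (hw : w ∈ WSp m)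
    (c : Fin ((m + 1) + (m + 1))) : pidx m (w c) = pidx m (w (pE m (pidx m c))) := by
  rcases eq_pE_or m c with h | h
  · rw [← h]
  · conv_lhs => rw [h]
    rw [wsp_rev m w hw, pidx_rev]

/-- The action of the Weyl group on the index set `Fin (m+1)` (forgetting signs). -/
@[reducible] def wspAct (m : ℕ) : MulAction (WSp m) (Fin (m + 1)) where
  smul w i := pidx m (w.1 (pE m i))
  one_smul i := pidx_pE m i
  mul_smul w1 w2 i := by
    show pidx m ((w1.1 * w2.1) (pE m i)) = pidx m (w1.1 (pE m (pidx m (w2.1 (pE m i)))))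
    rw [Equiv.Perm.mul_apply, pidx_wsp m w1.1 w1.2]

/-- The projection of the Weyl group onto the symmetric group of the index set. -/
noncomputable def wspPi (m : ℕ) : WSp m →* Equiv.Perm (Fin (m + 1)) :=
  @MulAction.toPermHom (WSp m) (Fin (m + 1)) _ (wspAct m)

theorem wspPi_apply (m : ℕ) (w : WSp m) (i : Fin (m + 1)) :
    wspPi m w i = pidx m (w.1 (pE m i)) := rfl

theorem wspPi_none (m : ℕ) :
    wspPi m ⟨sgen m none, Subgroup.subset_closure ⟨none, rfl⟩⟩ = 1 := by
  apply Equiv.ext
  intro i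
  rw [wspPi_apply]
  show pidx m (Equiv.swap (pE m (Fin.last m)) (pF m (Fin.last m)) (pE m i)) = i
  by_cases hi : i = Fin.last m
  · rw [hi, Equiv.swap_apply_left, pF_eq_rev, pidx_rev, pidx_pE]
  · rw [Equiv.swap_apply_of_ne_of_ne (fun h => hi (pE_inj m h)) (pE_ne_pF m _ _), pidx_pE]

theorem wspPi_some (m : ℕ) (k : Fin m) :
    wspPi m ⟨sgen m (some k), Subgroup.subset_closure ⟨some k, rfl⟩⟩ =
      Equiv.swap k.castSucc k.succ := by
  apply Equiv.ext
  intro i
  rw [wspPi_apply]
  show pidx m ((Equiv.swap (pE m k.castSucc) (pE m k.succ) *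
    Equiv.swap (pF m k.succ) (pF m k.castSucc)) (pE m i)) = _
  have hinj : Function.Injective (pE m) := fun _ _ h => pE_inj m h
  rw [Equiv.Perm.mul_apply, Equiv.swap_apply_of_ne_of_ne (pE_ne_pF m _ _) (pE_ne_pF m _ _),
    hinj.swap_apply, pidx_pE]

theorem exists_wsp_sign (m : ℕ) : ∃ ε : WSp m →* ℤˣ,
    ∀ o, ε ⟨sgen m o, Subgroup.subset_closure ⟨o, rfl⟩⟩ = -1 := by
  refine ⟨(Equiv.Perm.sign.comp (WSp m).subtype) * (Equiv.Perm.sign.comp (wspPi m)), ?_⟩
  intro o
  rw [MonoidHom.mul_apply, MonoidHom.comp_apply, MonoidHom.comp_apply]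
  cases o with
  | none =>
    rw [wspPi_none, map_one, mul_one]
    show Equiv.Perm.sign (Equiv.swap _ _) = -1
    exact Equiv.Perm.sign_swap (pE_ne_pF m _ _)
  | some k =>
    rw [wspPi_some, Equiv.Perm.sign_swap (Fin.castSucc_lt_succ).ne]
    show Equiv.Perm.sign (Equiv.swap (pE m k.castSucc) (pE m k.succ) *
      Equiv.swap (pF m k.succ) (pF m k.castSucc)) * -1 = -1
    have h1 : k.castSucc ≠ k.succ := (Fin.castSucc_lt_succ).ne
    rw [map_mul, Equiv.Perm.sign_swap (fun h => h1 (pE_inj m h)),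
      Equiv.Perm.sign_swap (fun h => h1 (pF_inj m h).symm)]
    rfl

end Cfsg.Agent.H92.StSp
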