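import Mathlib
import Cfsg.Agent.H38.QdNat3

/-!
# `|Aut(SL(2,5))| ≤ 120` (helper92, for S0689)

`SL(2,5)` is generated by `U = [[1,1],[0,1]]` and `L = [[1,0],[1,1]]`.  The orbit of `U` under
`Aut` consists of elements of order 5 (there are 24), and an automorphism fixing `U` is determined
by the image `l` of `L`, which satisfies `l⁵ = 1 ≠ l` and `U l⁴ U` of order 4 (5 such `l`).
-/

set_option autoImplicit false

namespace Cfsg.Agent.H92.Zs

open Matrix MatrixGroups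

/-- the four entries of a matrix of `SL(2,5)` -/
def raw (x : SL(2, ZMod 5)) : ZMod 5 × ZMod 5 × ZMod 5 × ZMod 5 := (x 0 0, x 0 1, x 1 0, x 1 1)

/-- matrix multiplication on entries -/
def rmul (s t : ZMod 5 × ZMod 5 × ZMod 5 × ZMod 5) : ZMod 5 × ZMod 5 × ZMod 5 × ZMod 5 :=
  (s.1 * t.1 + s.2.1 * t.2.2.1, s.1 * t.2.1 + s.2.1 * t.2.2.2,
    s.2.2.1 * t.1 + s.2.2.2 * t.2.2.1, s.2.2.1 * t.2.1 + s.2.2.2 * t.2.2.2)

/-- square on entries -/
def rp2 (t : ZMod 5 × ZMod 5 × ZMod 5 × ZMod 5) : ZMod 5 × ZMod 5 × ZMod 5 × ZMod 5 := rmul t t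

/-- fourth power on entries -/
def rp4 (t : ZMod 5 × ZMod 5 × ZMod 5 × ZMod 5) : ZMod 5 × ZMod 5 × ZMod 5 × ZMod 5 :=
  rp2 (rp2 t)

/-- fifth power on entries -/
def rp5 (t : ZMod 5 × ZMod 5 × ZMod 5 × ZMod 5) : ZMod 5 × ZMod 5 × ZMod 5 × ZMod 5 :=
  rmul (rp4 t) t

/-- `U * t⁴ * U` on entries -/
def rw5 (t : ZMod 5 × ZMod 5 × ZMod 5 × ZMod 5) : ZMod 5 × ZMod 5 × ZMod 5 × ZMod 5 :=
  rmul (rmul (1, 1, 0, 1) (rp4 t)) (1, 1, 0, 1)

theorem raw_mul (x y : SL(2, ZMod 5)) : raw (x * y) = rmul (raw x) (raw y) := by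
  simp [raw, rmul, Matrix.SpecialLinearGroup.coe_mul, Matrix.mul_apply, Fin.sum_univ_two]

theorem raw_one : raw 1 = (1, 0, 0, 1) := by
  simp [raw]

theorem raw_injective : Function.Injective raw := by
  intro x y h
  simp only [raw, Prod.mk.injEq] at h
  ext i j
  fin_cases i <;> fin_cases j
  · exact h.1
  · exact h.2.1
  · exact h.2.2.1
  · exact h.2.2.2

theorem raw_det (x : SL(2, ZMod 5)) :
    (raw x).1 * (raw x).2.2.2 - (raw x).2.1 * (raw x).2.2.1 = 1 := by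
  have := x.det_coe
  rw [Matrix.det_fin_two] at this
  exact this

theorem raw_p2 (x : SL(2, ZMod 5)) : raw (x ^ 2) = rp2 (raw x) := by
  rw [pow_two, raw_mul]; rfl

theorem raw_p4 (x : SL(2, ZMod 5)) : raw (x ^ 4) = rp4 (raw x) := by
  have h : x ^ 4 = (x ^ 2) ^ 2 := by rw [← pow_mul]
  rw [h, raw_p2, raw_p2]; rfl

theorem raw_p5 (x : SL(2, ZMod 5)) : raw (x ^ 5) = rp5 (raw x) := by
  have h : x ^ 5 = x ^ 4 * x := pow_succ x 4
  rw [h, raw_mul, raw_p4]; rfl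

/-- the upper unipotent generator -/
def gU : SL(2, ZMod 5) := ⟨!![1, 1; 0, 1], by decide⟩

/-- the lower unipotent generator -/
def gL : SL(2, ZMod 5) := ⟨!![1, 0; 1, 1], by decide⟩

theorem raw_gU : raw gU = (1, 1, 0, 1) := by
  decide

theorem closure_gU_gL : Subgroup.closure ({gU, gL} : Set SL(2, ZMod 5)) = ⊤ := by
  haveI : Fact (Nat.Prime 5) := ⟨by norm_num⟩
  have h := Cfsg.Agent.H38.sl2_closure_eq_top (p := 5)
  have h1 : Cfsg.Agent.H7.slUpper (1 : ZMod 5) = gU := Subtype.ext rfl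
  have h2 : Cfsg.Agent.H38.slLower (1 : ZMod 5) = gL := Subtype.ext rfl
  rw [h1, h2] at h
  exact h

theorem raw_w5 (l : SL(2, ZMod 5)) : raw (gU * l ^ 4 * gU) = rw5 (raw l) := by
  rw [raw_mul, raw_mul, raw_p4, raw_gU]; rfl

/-- the elements of order 5, on entries -/
def o5list : List (ZMod 5 × ZMod 5 × ZMod 5 × ZMod 5) :=
  [(0, 1, 4, 2), (0, 2, 2, 2), (0, 3, 3, 2), (0, 4, 1, 2), (1, 0, 1, 1), (1, 0, 2, 1),
   (1, 0, 3, 1), (1, 0, 4, 1), (1, 1, 0, 1), (1, 2, 0, 1), (1, 3, 0, 1), (1, 4, 0, 1),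
   (2, 1, 4, 0), (2, 2, 2, 0), (2, 3, 3, 0), (2, 4, 1, 0), (3, 1, 1, 4), (3, 2, 3, 4),
   (3, 3, 2, 4), (3, 4, 4, 4), (4, 1, 1, 3), (4, 2, 3, 3), (4, 3, 2, 3), (4, 4, 4, 3)]

/-- the possible images of `L` under an automorphism fixing `U`, on entries -/
def tulist : List (ZMod 5 × ZMod 5 × ZMod 5 × ZMod 5) :=
  [(0, 4, 1, 2), (1, 0, 1, 1), (2, 4, 1, 0), (3, 1, 1, 4), (4, 1, 1, 3)]

/-- the raw condition "order 5" -/
def o5c (t : ZMod 5 × ZMod 5 × ZMod 5 × ZMod 5) : Bool :=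
  decide (t.1 * t.2.2.2 - t.2.1 * t.2.2.1 = 1) && decide (rp5 t = (1, 0, 0, 1)) &&
    !decide (t = (1, 0, 0, 1))

/-- the raw condition "image of `L`" -/
def tuc (t : ZMod 5 × ZMod 5 × ZMod 5 × ZMod 5) : Bool :=
  o5c t && decide (rp4 (rw5 t) = (1, 0, 0, 1)) && !decide (rp2 (rw5 t) = (1, 0, 0, 1))

theorem o5_raw : ∀ a b c d : ZMod 5, o5c (a, b, c, d) = true → (a, b, c, d) ∈ o5list := by
  decide +kernel

theorem tu_raw : ∀ a b c d : ZMod 5, tuc (a, b, c, d) = true → (a, b, c, d) ∈ tulist := by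
  decide +kernel

theorem o5c_raw (x : SL(2, ZMod 5)) (h5 : x ^ 5 = 1) (h1 : x ≠ 1) : o5c (raw x) = true := by
  unfold o5c
  simp only [Bool.and_eq_true, decide_eq_true_eq, Bool.not_eq_true', decide_eq_false_iff_not]
  refine ⟨⟨raw_det x, ?_⟩, ?_⟩
  · rw [← raw_p5, h5, raw_one]
  · intro h
    exact h1 (raw_injective (h.trans raw_one.symm))

theorem tuc_raw (l : SL(2, ZMod 5)) (h5 : l ^ 5 = 1) (h1 : l ≠ 1)
    (h4 : (gU * l ^ 4 * gU) ^ 4 = 1) (h2 : (gU * l ^ 4 * gU) ^ 2 ≠ 1) : tuc (raw l) = true := by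
  unfold tuc
  simp only [Bool.and_eq_true, decide_eq_true_eq, Bool.not_eq_true', decide_eq_false_iff_not]
  refine ⟨⟨o5c_raw l h5 h1, ?_⟩, ?_⟩
  · rw [← raw_w5, ← raw_p4, h4, raw_one]
  · rw [← raw_w5, ← raw_p2]
    intro h
    exact h2 (raw_injective (h.trans raw_one.symm))

theorem card_le_of_raw (P : SL(2, ZMod 5) → Prop)
    (F : List (ZMod 5 × ZMod 5 × ZMod 5 × ZMod 5)) (h : ∀ x, P x → raw x ∈ F) :
    Nat.card {x // P x} ≤ F.length := by
  classical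
  have hinj : Function.Injective (fun x : {x // P x} =>
      (⟨raw x.1, List.mem_toFinset.mpr (h x.1 x.2)⟩ : F.toFinset)) := by
    intro x y hxy
    exact Subtype.ext (raw_injective (congrArg Subtype.val hxy))
  calc Nat.card {x // P x} ≤ Nat.card F.toFinset := Nat.card_le_card_of_injective _ hinj
    _ = F.toFinset.card := Nat.card_eq_fintype_card.trans (Fintype.card_coe _)
    _ ≤ F.length := List.toFinset_card_le F

/-- abstract counting of automorphisms through two generators -/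
theorem card_mulAut_le_of {G : Type*} [Group G] [Finite G] (U L : G)
    (hgen : Subgroup.closure ({U, L} : Set G) = ⊤) (n k : ℕ)
    (horb : Nat.card {x : G // x ^ 5 = 1 ∧ x ≠ 1} ≤ n)
    (hst : Nat.card {l : G // l ^ 5 = 1 ∧ l ≠ 1 ∧ (U * l ^ 4 * U) ^ 4 = 1 ∧
      (U * l ^ 4 * U) ^ 2 ≠ 1} ≤ k)
    (hU5 : U ^ 5 = 1) (hU1 : U ≠ 1) (hL5 : L ^ 5 = 1) (hL1 : L ≠ 1)
    (hw4 : (U * L ^ 4 * U) ^ 4 = 1) (hw2 : (U * L ^ 4 * U) ^ 2 ≠ 1) :
    Nat.card (MulAut G) ≤ n * k := by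
  classical
  have hos : Nat.card (MulAction.orbit (MulAut G) U) *
      Nat.card (MulAction.stabilizer (MulAut G) U) = Nat.card (MulAut G) := by
    have h1 := Subgroup.card_mul_index (MulAction.stabilizer (MulAut G) U)
    rw [MulAction.index_stabilizer, ← Nat.card_coe_set_eq, mul_comm] at h1
    exact h1
  -- the orbit of `U`
  have h1 : Nat.card (MulAction.orbit (MulAut G) U) ≤ n := by
    have hsub : ∀ x ∈ MulAction.orbit (MulAut G) U, x ^ 5 = 1 ∧ x ≠ 1 := by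
      rintro _ ⟨σ, rfl⟩
      show (σ U) ^ 5 = 1 ∧ σ U ≠ 1
      refine ⟨by rw [← map_pow, hU5, map_one], fun h => hU1 ?_⟩
      exact σ.injective (h.trans (map_one σ).symm)
    have hinj : Function.Injective (fun x : MulAction.orbit (MulAut G) U =>
        (⟨x.1, hsub x.1 x.2⟩ : {x : G // x ^ 5 = 1 ∧ x ≠ 1})) := by
      intro x y hxy
      exact Subtype.ext (Subtype.mk.inj hxy)
    exact (Nat.card_le_card_of_injective _ hinj).trans horb
  -- the stabilizer of `U`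
  have h2 : Nat.card (MulAction.stabilizer (MulAut G) U) ≤ k := by
    have hfix : ∀ σ : MulAction.stabilizer (MulAut G) U, (σ : MulAut G) U = U :=
      fun σ => σ.2
    have hcond : ∀ σ : MulAction.stabilizer (MulAut G) U,
        ((σ : MulAut G) L) ^ 5 = 1 ∧ (σ : MulAut G) L ≠ 1 ∧
        (U * ((σ : MulAut G) L) ^ 4 * U) ^ 4 = 1 ∧
        (U * ((σ : MulAut G) L) ^ 4 * U) ^ 2 ≠ 1 := by
      intro σ
      have hw : U * ((σ : MulAut G) L) ^ 4 * U = (σ : MulAut G) (U * L ^ 4 * U) := by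
        rw [map_mul, map_mul, map_pow, hfix σ]
      refine ⟨by rw [← map_pow, hL5, map_one], fun h => hL1 ?_, ?_, fun h => hw2 ?_⟩
      · exact (σ : MulAut G).injective (h.trans (map_one _).symm)
      · rw [hw, ← map_pow, hw4, map_one]
      · rw [hw, ← map_pow] at h
        exact (σ : MulAut G).injective (h.trans (map_one _).symm)
    have hinj : Function.Injective (fun σ : MulAction.stabilizer (MulAut G) U =>
        (⟨(σ : MulAut G) L, hcond σ⟩ : {l : G // l ^ 5 = 1 ∧ l ≠ 1 ∧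
          (U * l ^ 4 * U) ^ 4 = 1 ∧ (U * l ^ 4 * U) ^ 2 ≠ 1})) := by
      intro σ τ hστ
      have hL : (σ : MulAut G) L = (τ : MulAut G) L := Subtype.mk.inj hστ
      apply Subtype.ext
      have hhom : ((σ : MulAut G) : G →* G) = ((τ : MulAut G) : G →* G) := by
        apply MonoidHom.eq_of_eqOn_dense hgen
        rintro x (rfl | rfl)
        · exact (hfix σ).trans (hfix τ).symm
        · exact hL
      apply MulEquiv.ext
      intro x
      exact DFunLike.congr_fun hhom x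
    exact (Nat.card_le_card_of_injective _ hinj).trans hst
  calc Nat.card (MulAut G)
      = Nat.card (MulAction.orbit (MulAut G) U) *
        Nat.card (MulAction.stabilizer (MulAut G) U) := hos.symm
    _ ≤ n * k := Nat.mul_le_mul h1 h2

/-- **S0689-AUT**: `SL(2,5)` has at most 120 automorphisms. -/
theorem card_mulAut_le :
    Nat.card (MulAut (Matrix.SpecialLinearGroup (Fin 2) (ZMod 5))) ≤ 120 := by
  have h1 : Nat.card {x : SL(2, ZMod 5) // x ^ 5 = 1 ∧ x ≠ 1} ≤ 24 :=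
    card_le_of_raw _ o5list (fun x hx => o5_raw _ _ _ _ (o5c_raw x hx.1 hx.2))
  have h2 : Nat.card {l : SL(2, ZMod 5) // l ^ 5 = 1 ∧ l ≠ 1 ∧ (gU * l ^ 4 * gU) ^ 4 = 1 ∧
      (gU * l ^ 4 * gU) ^ 2 ≠ 1} ≤ 5 :=
    card_le_of_raw _ tulist
      (fun l hl => tu_raw _ _ _ _ (tuc_raw l hl.1 hl.2.1 hl.2.2.1 hl.2.2.2))
  exact card_mulAut_le_of gU gL closure_gU_gL 24 5 h1 h2 (by decide) (by decide) (by decide)
    (by decide) (by decide) (by decide)

end Cfsg.Agent.H92.Zs
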