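import Mathlib
import Cfsg.Agent.H57.BG1218Defs
import Cfsg.Agent.H92.BG123

set_option autoImplicit false
set_option linter.style.haveILetI false

/-!
# B&G Lemma 12.18, piece CASE1 (helper92, for helper57's S1427 project)

`H` not conjugate to `M`, `p ∈ σ(H)`: a `p`-subgroup `S` of `H` centralizes every `q`-subgroup
(`q ≠ p`) of `M_σ ∩ H` that it normalizes.
-/

namespace Cfsg.Agent.H92.BG1218

open Cfsg Subgroup Cfsg.Agent.H58.BG10 Cfsg.Agent.H57.BG1218 Cfsg.Agent.H92.BG12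
open scoped Pointwise

universe u

variable {G : Type u} [Group G] [Finite G]

theorem case1 (hG : IsMinSimpleOddOrder G) (h03 : St1403 G) (h05 : St1405 G) (h50 : St1350 G)
    (hSC : StSigComm G) : StCase1 G := by
  intro M H hM hH hnc p _ hpH S hSH hSp q _ hqp Q hQσ hQH hQq hSQ
  have hp : p.Prime := Fact.out
  have hq : q.Prime := Fact.out
  by_contra hcon
  obtain ⟨y, hy, hyc⟩ := SetLike.not_le_iff_exists.mp hcon
  rw [Subgroup.mem_centralizer_iff] at hyc
  push Not at hyc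
  obtain ⟨a, ha, hay⟩ := hyc
  have ha' : a ∈ S := ha
  set c := y * a * y⁻¹ * a⁻¹ with hc
  have hc1 : c ≠ 1 := by
    intro h
    apply hay
    have : y * a = a * y := by
      calc y * a = (y * a * y⁻¹ * a⁻¹) * (a * y) := by group
        _ = a * y := by rw [← hc, h, one_mul]
    exact this.symm
  have hcQ : c ∈ Q := by
    have h1 : a * y⁻¹ * a⁻¹ ∈ Q :=
      (Subgroup.mem_normalizer_iff.mp (hSQ ha') y⁻¹).mp (inv_mem hy)
    have : c = y * (a * y⁻¹ * a⁻¹) := by rw [hc]; group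
    rw [this]
    exact mul_mem hy h1
  obtain ⟨j, hj⟩ := (IsPGroup.iff_orderOf.mp hQq) ⟨c, hcQ⟩
  have hcq : c ^ q ^ j = 1 := by
    have := pow_orderOf_eq_one (⟨c, hcQ⟩ : Q)
    rw [hj] at this
    simpa using congrArg Subtype.val this
  have hqM : q ∈ sigma M := mem_of_mem_piCoreOf (π := sigma M) (M := M) (hQσ hcQ) hc1 hcq
  have haσ : a ∈ sigmaCore H := le_sigmaCore_of_mem h50 hH hpH hSp hSH ha'
  have hcσ : c ∈ sigmaCore H := by
    have h1 : y * a * y⁻¹ ∈ sigmaCore H :=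
      (Subgroup.mem_normalizer_iff.mp
        (Cfsg.Agent.Lib.Helper30.le_normalizer_piCoreOf (sigma H) H (hQH hy)) a).mp haσ
    exact mul_mem h1 (inv_mem haσ)
  have hqH : q ∈ sigma H := mem_of_mem_piCoreOf (π := sigma H) (M := H) hcσ hc1 hcq
  have hyσ : y ∈ sigmaCore H := le_sigmaCore_of_mem h50 hH hqH hQq hQH hy
  have hcop : (orderOf y).Coprime (orderOf a) := by
    obtain ⟨i, hi⟩ := (IsPGroup.iff_orderOf.mp hQq) ⟨y, hy⟩
    obtain ⟨k, hk⟩ := (IsPGroup.iff_orderOf.mp hSp) ⟨a, ha'⟩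
    rw [Subgroup.orderOf_mk] at hi hk
    rw [hi, hk]
    exact Nat.Coprime.pow _ _ ((Nat.coprime_primes hq hp).mpr hqp)
  have hcα : c ∈ alphaCore H := comm_mem_alphaCore h05 hSC hH hyσ haσ hcop
  have hqα : q ∈ alpha H := mem_of_mem_piCoreOf (π := alpha H) (M := H) hcα hc1 hcq
  obtain ⟨g, hg⟩ := conj_of_alpha_sigma hG h03 hH hM hqα hqM
  exact hnc g hg

example (hG : IsMinSimpleOddOrder G) (h03 : St1403 G) (h05 : St1405 G) (h50 : St1350 G)
    (hSC : StSigComm G) : Cfsg.Agent.H57.BG1218.StCase1 G := case1 hG h03 h05 h50 hSC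

end Cfsg.Agent.H92.BG1218
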