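import Cfsg.Agent.H23.IcDefs

set_option autoImplicit false

/-!
# S5751, piece STEP0: the first step `P_J → Rk 1` of the upper bound
-/

namespace Cfsg.Agent.H92.Ic

open Cfsg.Lie Cfsg.Agent.H23 Cfsg.Agent.H23.Ic

/-- Transport of `Fil` by a graded-monomial pair. -/
theorem fil_conj {w w' : chevE8.Idx → ℤ} (g h : Matrix chevE8.Idx chevE8.Idx (ZMod 2))
    (hg : ∀ a c, g a c ≠ 0 → w' a = w c) (hh : ∀ a c, h a c ≠ 0 → w a = w' c)
    {M : Matrix chevE8.Idx chevE8.Idx (ZMod 2)} (hM : Fil w M) : Fil w' (g * M * h) := by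
  intro a d had
  obtain ⟨c, h1, h2⟩ := exists_of_mul_ne_zero had
  obtain ⟨b, h3, h4⟩ := exists_of_mul_ne_zero h1
  have e1 := hg a b h3
  have e2 := hM b c h4
  have e3 := hh c d h2
  omega

/-- Conjugation by `n_j` carries `filtGroup (wt cr)` into `filtGroup (wt (reflC j cr))`. -/
theorem conj_filtGroup (hB : StBasic) (hG : StGrad) (cr : List ℤ) (hcr : cr ∈ levC :: crs) (j : ℕ)
    (hj : j < 8) (v : GLE) (hv : v ∈ filtGroup (wt cr)) :
    nn j * v * (nn j)⁻¹ ∈ filtGroup (wt (reflC j cr)) := by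
  have hnn : (nn j)⁻¹ = nn j := inv_eq_of_mul_eq_one_right (hB.1 j hj)
  have hgrad := hG cr hcr j hj
  have key : ∀ x : GLE, Fil (wt cr) (x : Matrix chevE8.Idx chevE8.Idx (ZMod 2)) →
      Fil (wt (reflC j cr)) ((nn j * x * nn j : GLE) : Matrix chevE8.Idx chevE8.Idx (ZMod 2)) := by
    intro x hx
    rw [Units.val_mul, Units.val_mul]
    exact fil_conj _ _ (fun a c h => (hgrad a c h).1) (fun a c h => (hgrad a c h).2) hx
  obtain ⟨hv1, hv2⟩ := hv
  rw [hnn]
  refine ⟨key v hv1, ?_⟩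
  have e2 : (nn j * v * nn j)⁻¹ = nn j * v⁻¹ * nn j := by
    rw [_root_.mul_inv_rev, _root_.mul_inv_rev, hnn, mul_assoc]
  rw [e2]
  exact key v⁻¹ hv2

/-- The separation table fact, on `chevE8.Idx`. -/
theorem wd_aux (hsep : ∀ a < 248, ∀ c < 248, wN levC a = wN levC c → (∀ cr ∈ crs, wN cr c ≤ wN cr a) →
    a = c ∨ (240 ≤ a ∧ 240 ≤ c)) (a c : chevE8.Idx) (hlev : wt levC a = wt levC c)
    (h : ∀ cr ∈ crs, wt cr c ≤ wt cr a) : a = c ∨ ∃ i j, a = Sum.inl i ∧ c = Sum.inl j := by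
  have hn : chevE8.nroots = 240 := rfl
  rcases hsep (ix chevE8 a) (ix_lt chevE8 a) (ix chevE8 c) (ix_lt chevE8 c) hlev h with e | ⟨e1, e2⟩
  · exact Or.inl (ix_injective chevE8 e)
  · right
    rcases a with i | r
    · rcases c with j | s
      · exact ⟨i, j, rfl, rfl⟩
      · exfalso
        have h1 := s.isLt
        have h2 : 240 ≤ s.val := e2
        omega
    · exfalso
      have h1 := r.isLt
      have h2 : 240 ≤ r.val := e1
      omega

/-- STEP0. -/
theorem step0 : StStep0 := by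
  intro hB hFP hLevi hG hT hWD hLT N hNP hNn _ hNc
  have hlen : crs.length = 30 := hT.1.1
  have h0 := hT.1.2.1
  have hpar := hT.1.2.2.2
  have hsep := hT.2.2.1
  have hneg := hT.2.2.2.1
  have hwpos := hT.2.2.2.2.2.2.1
  have hwmin := hT.2.2.2.2.2.2.2
  have key : ∀ i, i < 30 → N ≤ filtGroup (wt (crs.getD i [])) := by
    intro i
    induction i using Nat.strong_induction_on with
    | _ i ih =>
      intro hi
      rcases Nat.eq_zero_or_pos i with rfl | hpos
      · rw [h0]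
        intro u hu
        obtain ⟨v, hv, rfl⟩ := Subgroup.mem_map.mp (hNc hu)
        exact conj_filtGroup hB hG levC (List.mem_cons_self ..) 3 (by norm_num) v (hFP hv)
      · obtain ⟨i', rfl⟩ : ∃ i', i = i' + 1 := ⟨i - 1, by omega⟩
        obtain ⟨hp1, hp2, hp3, hp4⟩ := hpar i' (by omega)
        rw [hp4]
        intro u hu
        have hnj : nn (par.getD i' (0, 0)).2 ∈ Pj := hB.2.1 _ hp2 hp3
        have hu' := hNn _ hnj u hu
        have hnn : (nn (par.getD i' (0, 0)).2)⁻¹ = nn (par.getD i' (0, 0)).2 :=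
          inv_eq_of_mul_eq_one_right (hB.1 _ hp2)
        have e : u = nn (par.getD i' (0, 0)).2 *
            (nn (par.getD i' (0, 0)).2 * u * (nn (par.getD i' (0, 0)).2)⁻¹) *
              (nn (par.getD i' (0, 0)).2)⁻¹ := by
          rw [hnn]
          have h1 := hB.1 _ hp2
          calc u = (nn (par.getD i' (0, 0)).2 * nn (par.getD i' (0, 0)).2) * u *
                (nn (par.getD i' (0, 0)).2 * nn (par.getD i' (0, 0)).2) := by rw [h1, one_mul, mul_one]
            _ = _ := by simp only [mul_assoc]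
        rw [e]
        have hmem : crs.getD (par.getD i' (0, 0)).1 [] ∈ levC :: crs := by
          have hlt : (par.getD i' (0, 0)).1 < crs.length := by rw [hlen]; omega
          rw [List.getD_eq_getElem _ _ hlt]
          exact List.mem_cons_of_mem _ (List.getElem_mem hlt)
        exact conj_filtGroup hB hG _ hmem _ hp2 _ (ih _ (by omega) (by omega) hu')
  have key2 : ∀ cr ∈ crs, N ≤ filtGroup (wt cr) := by
    intro cr hcr
    obtain ⟨i, hi, rfl⟩ := List.mem_iff_getElem.mp hcr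
    have h := key i (by rw [← hlen]; exact hi)
    rwa [List.getD_eq_getElem _ _ hi] at h
  intro u hu
  obtain ⟨v, hv, l, hl, hvU, hlG, huvl⟩ := hLevi u (hNP hu)
  have hl1 : l = 1 := by
    apply hWD l hlG
    · intro a c hac
      have hlev : wt levC a = wt levC c := hl.1 a c hac
      have huac : (u : Matrix chevE8.Idx chevE8.Idx (ZMod 2)) a c ≠ 0 := by
        have e : (u : Matrix chevE8.Idx chevE8.Idx (ZMod 2)) = (l : Matrix chevE8.Idx chevE8.Idx (ZMod 2)) +
            ((v : Matrix chevE8.Idx chevE8.Idx (ZMod 2)) - 1) * (l : Matrix chevE8.Idx chevE8.Idx (ZMod 2)) := by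
          rw [huvl, Units.val_mul, Matrix.sub_mul, Matrix.one_mul]; abel
        rw [e, Matrix.add_apply]
        have hz : (((v : Matrix chevE8.Idx chevE8.Idx (ZMod 2)) - 1) *
            (l : Matrix chevE8.Idx chevE8.Idx (ZMod 2))) a c = 0 := by
          by_contra hne
          obtain ⟨b, h1, h2⟩ := exists_of_mul_ne_zero hne
          have e1 := hv.1 a b h1
          have e2 := hl.1 b c h2
          omega
        rw [hz, add_zero]; exact hac
      exact wd_aux hsep a c hlev (fun cr hcr => (key2 cr hcr hu).1 a c huac)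
    · intro a c hac
      have hlev : wt levC a = wt levC c := hl.2 a c hac
      have huac : ((u⁻¹ : GLE) : Matrix chevE8.Idx chevE8.Idx (ZMod 2)) a c ≠ 0 := by
        have e : ((u⁻¹ : GLE) : Matrix chevE8.Idx chevE8.Idx (ZMod 2)) =
            ((l⁻¹ : GLE) : Matrix chevE8.Idx chevE8.Idx (ZMod 2)) +
            ((l⁻¹ : GLE) : Matrix chevE8.Idx chevE8.Idx (ZMod 2)) *
              (((v⁻¹ : GLE) : Matrix chevE8.Idx chevE8.Idx (ZMod 2)) - 1) := by
          rw [huvl, _root_.mul_inv_rev, Units.val_mul, Matrix.mul_sub, Matrix.mul_one]; abel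
        rw [e, Matrix.add_apply]
        have hz : (((l⁻¹ : GLE) : Matrix chevE8.Idx chevE8.Idx (ZMod 2)) *
            (((v⁻¹ : GLE) : Matrix chevE8.Idx chevE8.Idx (ZMod 2)) - 1)) a c = 0 := by
          by_contra hne
          obtain ⟨b, h1, h2⟩ := exists_of_mul_ne_zero hne
          have e1 := hl.2 a b h1
          have e2 := hv.2 b c h2
          omega
        rw [hz, add_zero]; exact hac
      exact wd_aux hsep a c hlev (fun cr hcr => (key2 cr hcr hu).2 a c huac)
  have huU : u ∈ Up := by rw [huvl, hl1, mul_one]; exact hvU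
  refine Subgroup.mem_inf.mpr ⟨huU, ?_⟩
  have huU' : u ∈ rootGen chevE8 (ZMod 2) (PosGe chevE8 0) :=
    rootGen_mono Ic.hS chevE8.IsPosRoot _ (fun r hr => ⟨hr, Nat.zero_le _⟩) huU
  obtain ⟨t, ht⟩ := exists_tailW Ic.hS tab_E8 (fun r s hr hs h1 h2 => commAll_E8 r s hr hs h1 h2) tabCP_E8
    chevE8.nroots 0 (by omega) u huU'
  have hsupp : ∀ r, chevE8.IsPosRoot r → t r ≠ 0 → 2 ≤ wN levC r := by
    classical
    intro r1 hr1 htr1
    by_contra hlt
    have hlt' : wN levC r1 ≤ 1 := by omega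
    have hr1s : r1 ∈ (Finset.range 240).filter (fun r => chevE8.IsPosRoot r ∧ t r ≠ 0) := by
      rw [Finset.mem_filter, Finset.mem_range]; exact ⟨hr1.1, hr1, htr1⟩
    obtain ⟨r0, hr0s, hmin⟩ := Finset.exists_min_image
      ((Finset.range 240).filter (fun r => chevE8.IsPosRoot r ∧ t r ≠ 0)) (fun r => wN wsC r) ⟨r1, hr1s⟩
    rw [Finset.mem_filter, Finset.mem_range] at hr0s
    obtain ⟨hr0lt, hr0pos, htr0⟩ := hr0s
    have hlev0 : wN levC r0 ≤ 1 := hwmin r1 hr1.1 hr1 hlt' r0 hr0lt hr0pos (hmin r1 hr1s)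
    obtain ⟨i, c, hc, hent⟩ := hLT wsC hwpos t r0 hr0pos htr0 (by
      intro s' hs' hts'
      exact hmin s' (by rw [Finset.mem_filter, Finset.mem_range]; exact ⟨hs'.1, hs', hts'⟩))
    obtain ⟨cr, hcr, hcrpos⟩ := hneg r0 hr0lt hr0pos hlev0
    have hfil := (key2 cr hcr hu).1 (Sum.inl i) (Sum.inr c) (by rw [ht]; exact hent)
    have e1 : wt cr (Sum.inr c) = wN cr (chevE8.neg r0) := by
      show wN cr c.val = _
      rw [hc]
    have e2 : wt cr (Sum.inl i) = 0 := by
      show zRl cr ctblE8 chevE8.nroots (chevE8.nroots + i.val) = 0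
      exact zRl_ge _ _ _ _ (by omega)
    rw [e1, e2] at hfil
    omega
  have hadm : Adm chevE8 (wN levC) := adm_zRl chevE8 levC ctblE8 chk_E8.admZ
  rw [ht]
  show wordU Ic.hS ((tailL chevE8 0).map fun r => (r, t r)) ∈ _
  apply wordU_mem
  intro p hp
  simp only [List.mem_map] at hp
  obtain ⟨r, hr, rfl⟩ := hp
  have hrpos : chevE8.IsPosRoot r := (mem_tailL 0 r hr).1
  by_cases htr : t r = 0
  · show xU Ic.hS r (t r) ∈ _
    rw [htr, xU_zero]; exact Subgroup.one_mem _
  · have h2 := hsupp r hrpos htr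
    have hm : ((1 : ℕ) : ℤ) < wN levC r := by push_cast; omega
    refine ⟨?_, ?_⟩
    · show RaisM (wt levC) ((1 : ℕ) : ℤ)
        (((xU Ic.hS r (t r) : GLE) : Matrix chevE8.Idx chevE8.Idx (ZMod 2)) - 1)
      rw [xU_val]; exact x_raisM (wN levC) hadm r hrpos.1 _ (Int.natCast_nonneg 1) hm (t r)
    · show RaisM (wt levC) ((1 : ℕ) : ℤ)
        ((((xU Ic.hS r (t r))⁻¹ : GLE) : Matrix chevE8.Idx chevE8.Idx (ZMod 2)) - 1)
      rw [xU_inv, xU_val]; exact x_raisM (wN levC) hadm r hrpos.1 _ (Int.natCast_nonneg 1) hm (-(t r))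

end Cfsg.Agent.H92.Ic
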