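import Cfsg.Agent.H23.IcDefs

set_option autoImplicit false

/-!
# S5751, piece STEPK: the step `Rk k → Rk (k+1)` of the upper bound (`k ≥ 1`)
-/

namespace Cfsg.Agent.H92.Ic

open Cfsg.Lie Cfsg.Agent.H23 Cfsg.Agent.H23.Ic

/-- A termwise shift of a list sum. -/
theorem list_sum_shift {α : Type*} (l : List α) (f g : α → ℤ) (m : ℤ)
    (h : ∀ x ∈ l, f x + m ≤ g x) : (l.map f).sum + (l.length : ℤ) * m ≤ (l.map g).sum := by
  induction l with
  | nil => simp
  | cons a l ih =>
    have h1 := h a (List.mem_cons_self ..)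
    have h2 := ih (fun x hx => h x (List.mem_cons_of_mem _ hx))
    have e : (((a :: l).length : ℕ) : ℤ) * m = (l.length : ℤ) * m + m := by
      rw [List.length_cons]; push_cast; ring
    rw [e, List.map_cons, List.sum_cons, List.map_cons, List.sum_cons]
    linarith

/-- Transport of `RaisM` by a graded-monomial pair. -/
theorem raisM_conj {w w' : chevE8.Idx → ℤ} {m : ℤ} (g h : Matrix chevE8.Idx chevE8.Idx (ZMod 2))
    (hg : ∀ a c, g a c ≠ 0 → w' a = w c) (hh : ∀ a c, h a c ≠ 0 → w a = w' c)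
    {M : Matrix chevE8.Idx chevE8.Idx (ZMod 2)} (hM : RaisM w m M) : RaisM w' m (g * M * h) := by
  intro a d had
  obtain ⟨c, h1, h2⟩ := exists_of_mul_ne_zero had
  obtain ⟨b, h3, h4⟩ := exists_of_mul_ne_zero h1
  have e1 := hg a b h3
  have e2 := hM b c h4
  have e3 := hh c d h2
  omega

/-- Conjugation by `n_j` carries `raisGroupM (wt cr) m` into `raisGroupM (wt (reflC j cr)) m`. -/
theorem conj_raisGroupM (hB : StBasic) (hG : StGrad) (cr : List ℤ) (hcr : cr ∈ levC :: crs) (j : ℕ)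
    (hj : j < 8) (m : ℤ) (hm : 0 ≤ m) (v : GLE) (hv : v ∈ raisGroupM (ZMod 2) (wt cr) m hm) :
    nn j * v * (nn j)⁻¹ ∈ raisGroupM (ZMod 2) (wt (reflC j cr)) m hm := by
  have hnn : (nn j)⁻¹ = nn j := inv_eq_of_mul_eq_one_right (hB.1 j hj)
  have hgrad := hG cr hcr j hj
  have h1 : ((nn j : GLE) : Matrix chevE8.Idx chevE8.Idx (ZMod 2)) * ((nn j : GLE) : Matrix _ _ (ZMod 2)) = 1 := by
    rw [← Units.val_mul, hB.1 j hj, Units.val_one]
  have key : ∀ x : GLE, RaisM (wt cr) m ((x : Matrix chevE8.Idx chevE8.Idx (ZMod 2)) - 1) →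
      RaisM (wt (reflC j cr)) m (((nn j * x * nn j : GLE) : Matrix chevE8.Idx chevE8.Idx (ZMod 2)) - 1) := by
    intro x hx
    have e : ((nn j * x * nn j : GLE) : Matrix chevE8.Idx chevE8.Idx (ZMod 2)) - 1 =
        ((nn j : GLE) : Matrix chevE8.Idx chevE8.Idx (ZMod 2)) *
          ((x : Matrix chevE8.Idx chevE8.Idx (ZMod 2)) - 1) * ((nn j : GLE) : Matrix _ _ (ZMod 2)) := by
      rw [Units.val_mul, Units.val_mul, Matrix.mul_sub, Matrix.sub_mul, Matrix.mul_one, h1]
    rw [e]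
    exact raisM_conj _ _ (fun a c h => (hgrad a c h).1) (fun a c h => (hgrad a c h).2) hx
  obtain ⟨hv1, hv2⟩ := hv
  rw [hnn]
  refine ⟨key v hv1, ?_⟩
  have e2 : (nn j * v * nn j)⁻¹ = nn j * v⁻¹ * nn j := by
    rw [_root_.mul_inv_rev, _root_.mul_inv_rev, hnn, mul_assoc]
  rw [e2]
  exact key v⁻¹ hv2

/-- STEPK. -/
theorem stepK : StStepK := by
  intro hB hG hT k _ N _ hNn hNR hNc
  have hk0 : (0 : ℤ) ≤ (k : ℤ) := Int.natCast_nonneg k
  have hlen : crs.length = 30 := hT.1.1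
  have h0 := hT.1.2.1
  have hpar := hT.1.2.2.2
  have hsum := hT.2.1
  have key : ∀ i, i < 30 → N ≤ raisGroupM (ZMod 2) (wt (crs.getD i [])) (k : ℤ) hk0 := by
    intro i
    induction i using Nat.strong_induction_on with
    | _ i ih =>
      intro hi
      rcases Nat.eq_zero_or_pos i with rfl | hpos
      · rw [h0]
        intro u hu
        obtain ⟨v, hv, rfl⟩ := Subgroup.mem_map.mp (hNc hu)
        exact conj_raisGroupM hB hG levC (List.mem_cons_self ..) 3 (by norm_num) k hk0 v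
          (Subgroup.mem_inf.mp hv).2
      · obtain ⟨i', rfl⟩ : ∃ i', i = i' + 1 := ⟨i - 1, by omega⟩
        obtain ⟨hp1, hp2, hp3, hp4⟩ := hpar i' (by omega)
        rw [hp4]
        intro u hu
        have hnj : nn (par.getD i' (0, 0)).2 ∈ Pj := hB.2.1 _ hp2 hp3
        have hu' := hNn _ hnj u hu
        have hnn : (nn (par.getD i' (0, 0)).2)⁻¹ = nn (par.getD i' (0, 0)).2 :=
          inv_eq_of_mul_eq_one_right (hB.1 _ hp2)
        have e : u = nn (par.getD i' (0, 0)).2 *
            (nn (par.getD i' (0, 0)).2 * u * (nn (par.getD i' (0, 0)).2)⁻¹) *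
              (nn (par.getD i' (0, 0)).2)⁻¹ := by
          rw [hnn]
          have h1 := hB.1 _ hp2
          calc u = (nn (par.getD i' (0, 0)).2 * nn (par.getD i' (0, 0)).2) * u *
                (nn (par.getD i' (0, 0)).2 * nn (par.getD i' (0, 0)).2) := by rw [h1, one_mul, mul_one]
            _ = _ := by simp only [mul_assoc]
        rw [e]
        have hmem : crs.getD (par.getD i' (0, 0)).1 [] ∈ levC :: crs := by
          have hlt : (par.getD i' (0, 0)).1 < crs.length := by rw [hlen]; omega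
          rw [List.getD_eq_getElem _ _ hlt]
          exact List.mem_cons_of_mem _ (List.getElem_mem hlt)
        exact conj_raisGroupM hB hG _ hmem _ hp2 k hk0 _ (ih _ (by omega) (by omega) hu')
  have key2 : ∀ cr ∈ crs, N ≤ raisGroupM (ZMod 2) (wt cr) (k : ℤ) hk0 := by
    intro cr hcr
    obtain ⟨i, hi, rfl⟩ := List.mem_iff_getElem.mp hcr
    have h := key i (by rw [← hlen]; exact hi)
    rwa [List.getD_eq_getElem _ _ hi] at h
  have fin : ∀ M : Matrix chevE8.Idx chevE8.Idx (ZMod 2), (∀ cr ∈ crs, RaisM (wt cr) (k : ℤ) M) →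
      RaisM (wt levC) ((k + 1 : ℕ) : ℤ) M := by
    intro M hM a c hac
    have ha : ix chevE8 a < 248 := ix_lt chevE8 a
    have hc : ix chevE8 c < 248 := ix_lt chevE8 c
    have s1 := hsum _ ha
    have s2 := hsum _ hc
    have h3 := list_sum_shift crs (fun cr => wN cr (ix chevE8 c)) (fun cr => wN cr (ix chevE8 a))
      ((k : ℤ) + 1) (by
        intro cr hcr
        have h := hM cr hcr a c hac
        have h' : wN cr (ix chevE8 c) + (k : ℤ) < wN cr (ix chevE8 a) := h
        show wN cr (ix chevE8 c) + ((k : ℤ) + 1) ≤ wN cr (ix chevE8 a)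
        omega)
    rw [hlen, s1, s2] at h3
    show wN levC (ix chevE8 c) + ((k + 1 : ℕ) : ℤ) < wN levC (ix chevE8 a)
    push_cast at h3 ⊢
    omega
  intro u hu
  refine Subgroup.mem_inf.mpr ⟨(Subgroup.mem_inf.mp (hNR hu)).1, ?_⟩
  exact ⟨fin _ (fun cr hcr => (key2 cr hcr hu).1), fin _ (fun cr hcr => (key2 cr hcr hu).2)⟩

end Cfsg.Agent.H92.Ic
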