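import Cfsg.Agent.H23.IcDefs

set_option autoImplicit false

/-!
# S5751, piece TAB: the table facts, by kernel evaluation
-/

namespace Cfsg.Agent.H92.Ic

open Cfsg.Lie Cfsg.Agent.H23 Cfsg.Agent.H23.Ic

theorem tab_par : crs.length = 30 ∧ crs.getD 0 [] = reflC 3 levC ∧ (∀ j < 8, j ≠ 3 → reflC j levC = levC) ∧
    ∀ i < 29, (par.getD i (0, 0)).1 < i + 1 ∧ (par.getD i (0, 0)).2 < 8 ∧ (par.getD i (0, 0)).2 ≠ 3 ∧
      crs.getD (i + 1) [] = reflC (par.getD i (0, 0)).2 (crs.getD (par.getD i (0, 0)).1 []) := by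
  decide +kernel

theorem tab_sum : ∀ c < 248, (crs.map fun cr => wN cr c).sum = 29 * wN levC c := by decide +kernel

set_option synthInstance.maxHeartbeats 2000000 in
set_option synthInstance.maxSize 4096 in
theorem tab_sep : ∀ a < 248, ∀ c < 248, wN levC a = wN levC c → (∀ cr ∈ crs, wN cr c ≤ wN cr a) →
    a = c ∨ (240 ≤ a ∧ 240 ≤ c) := by decide +kernel

theorem tab_neg : ∀ r < 240, chevE8.IsPosRoot r → wN levC r ≤ 1 → ∃ cr ∈ crs, 0 < wN cr (chevE8.neg r) := by
  decide +kernel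

theorem tab_lev6 : ∀ r < 240, wN levC r ≤ 6 := by decide +kernel

theorem tab_levpos : ∀ r < 240, chevE8.IsPosRoot r → 0 ≤ wN levC r := by decide +kernel

theorem tab_wspos : ∀ r < 240, chevE8.IsPosRoot r → 0 < wN wsC r := by decide +kernel

set_option synthInstance.maxHeartbeats 2000000 in
set_option synthInstance.maxSize 4096 in
theorem tab_lex : ∀ r < 240, chevE8.IsPosRoot r → wN levC r ≤ 1 → ∀ s < 240, chevE8.IsPosRoot s →
    wN wsC s ≤ wN wsC r → wN levC s ≤ 1 := by decide +kernel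

/-- TAB. -/
theorem tab : StTab :=
  ⟨tab_par, tab_sum, tab_sep, tab_neg, tab_lev6, tab_levpos, tab_wspos, tab_lex⟩

end Cfsg.Agent.H92.Ic
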