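import Mathlib

/-
Jordan-type theorem (Frobenius' argument): a finite group with a faithful complex
representation of degree `n` has a normal abelian subgroup `A` such that every abelian
subgroup `H` satisfies `[H : H ∩ A] ≤ 12 ^ n`.

Main statements (namespace `Cfsg.Agent.H92.Jordan`):
* `IsUnitaryRep T` : `T : G →* (V →L[ℂ] V)` preserves the inner product.
* `eq_of_commute_conj` : if `a` commutes with `w a w⁻¹` and `‖T w - 1‖ < 1` then `w a w⁻¹ = a`.
* `commute_of_mem` : elements `x`, `y` with `‖T x - √3/2‖ < 1/2`, `‖T y - √3/2‖ < 1/2` commute.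
* `exists_joint_basis` : a basis of joint eigenvectors for an abelian subgroup.
* `exists_abelian_normal` : the theorem for a faithful unitary representation.
* `W ρ`, `wRep ρ`, `wRep_unitary` : a unitary model of `ρ : Representation ℂ G (Fin n → ℂ)`.
* `exists_abelian_normal_of_rep` : the theorem for a faithful coordinate representation.
-/

namespace Cfsg.Agent.H92.Jordan

open scoped ComplexConjugate InnerProductSpace

universe u v

set_option autoImplicit false
set_option linter.style.haveILetI false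
set_option linter.unusedSectionVars false

variable {V : Type u} [NormedAddCommGroup V] [InnerProductSpace ℂ V] [FiniteDimensional ℂ V]
variable {G : Type v} [Group G]

/-- The representation preserves the inner product. -/
def IsUnitaryRep (T : G →* (V →L[ℂ] V)) : Prop := ∀ g u v, ⟪T g u, T g v⟫_ℂ = ⟪u, v⟫_ℂ

theorem norm_apply_eq {T : G →* (V →L[ℂ] V)} (hT : IsUnitaryRep T) (g : G) (v : V) :
    ‖T g v‖ = ‖v‖ := by
  have h : ‖T g v‖ ^ 2 = ‖v‖ ^ 2 := by
    rw [← inner_self_eq_norm_sq (𝕜 := ℂ), ← inner_self_eq_norm_sq (𝕜 := ℂ), hT]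
  exact (sq_eq_sq₀ (norm_nonneg _) (norm_nonneg _)).mp h

theorem opNorm_le_one {T : G →* (V →L[ℂ] V)} (hT : IsUnitaryRep T) (g : G) : ‖T g‖ ≤ 1 :=
  ContinuousLinearMap.opNorm_le_bound _ zero_le_one (fun v => by rw [norm_apply_eq hT, one_mul])

theorem norm_mul_left_le {T : G →* (V →L[ℂ] V)} (hT : IsUnitaryRep T) (g : G) (a : V →L[ℂ] V) :
    ‖T g * a‖ ≤ ‖a‖ :=
  (norm_mul_le _ _).trans (by nlinarith [opNorm_le_one hT g, norm_nonneg a])

theorem norm_mul_right_le {T : G →* (V →L[ℂ] V)} (hT : IsUnitaryRep T) (g : G) (a : V →L[ℂ] V) :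
    ‖a * T g‖ ≤ ‖a‖ :=
  (norm_mul_le _ _).trans (by nlinarith [opNorm_le_one hT g, norm_nonneg a])

/-- the centre `√3/2` of the disc. -/
noncomputable def cK : ℝ := Real.sqrt 3 / 2

/-- the scalar operator `√3/2`. -/
noncomputable def opK (V : Type u) [NormedAddCommGroup V] [InnerProductSpace ℂ V] : V →L[ℂ] V :=
  algebraMap ℂ (V →L[ℂ] V) (cK : ℂ)

theorem opK_comm (a : V →L[ℂ] V) : opK V * a = a * opK V := Algebra.commutes _ _

theorem map_mul_inv_self (T : G →* (V →L[ℂ] V)) (g : G) : T g * T g⁻¹ = 1 := by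
  rw [← map_mul, mul_inv_cancel, map_one]

theorem map_inv_mul_self (T : G →* (V →L[ℂ] V)) (g : G) : T g⁻¹ * T g = 1 := by
  rw [← map_mul, inv_mul_cancel, map_one]

theorem norm_conj_le {T : G →* (V →L[ℂ] V)} (hT : IsUnitaryRep T) (h g : G) :
    ‖T (h * g * h⁻¹) - opK V‖ ≤ ‖T g - opK V‖ := by
  have : T (h * g * h⁻¹) - opK V = T h * (T g - opK V) * T h⁻¹ := by
    rw [map_mul, map_mul, mul_sub, sub_mul, ← opK_comm, mul_assoc (opK V), map_mul_inv_self,
      mul_one]
  rw [this]
  exact (norm_mul_right_le hT _ _).trans (norm_mul_left_le hT _ _)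

theorem norm_commutator_le {T : G →* (V →L[ℂ] V)} (hT : IsUnitaryRep T) (x w : G) :
    ‖T (x * w * x⁻¹ * w⁻¹) - 1‖ ≤ 2 * ‖T x - opK V‖ * ‖T w - 1‖ := by
  have h1 : T (x * w * x⁻¹ * w⁻¹) - 1 = (T x * T w - T w * T x) * T (x⁻¹ * w⁻¹) := by
    rw [sub_mul, ← map_mul, ← map_mul, ← map_mul, ← map_mul]
    have e1 : x * w * (x⁻¹ * w⁻¹) = x * w * x⁻¹ * w⁻¹ := by group
    have e2 : w * x * (x⁻¹ * w⁻¹) = 1 := by group
    rw [e1, e2, map_one]
  have h2 : T x * T w - T w * T x
      = (T x - opK V) * (T w - 1) - (T w - 1) * (T x - opK V) := by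
    have := opK_comm (T w)
    simp only [sub_mul, mul_sub, mul_one, one_mul]
    rw [this]; abel
  rw [h1]
  refine (norm_mul_right_le hT _ _).trans ?_
  rw [h2]
  refine (norm_sub_le _ _).trans ?_
  have := norm_mul_le (T x - opK V) (T w - 1)
  have := norm_mul_le (T w - 1) (T x - opK V)
  nlinarith


theorem exists_eigvec_in (f : V →ₗ[ℂ] V) (p : Submodule ℂ V) (hp : ∀ v ∈ p, f v ∈ p)
    (hne : p ≠ ⊥) : ∃ v ∈ p, v ≠ 0 ∧ ∃ μ : ℂ, f v = μ • v := by
  have : Nontrivial p := Submodule.nontrivial_iff_ne_bot.mpr hne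
  obtain ⟨μ, hμ⟩ := Module.End.exists_eigenvalue (f.restrict hp)
  obtain ⟨w, hw⟩ := hμ.exists_hasEigenvector
  refine ⟨w, w.2, ?_, μ, ?_⟩
  · intro h; exact hw.2 (Subtype.ext h)
  · have := hw.apply_eq_smul
    exact congrArg Subtype.val this

theorem norm_eigenvalue_eq_one {T : G →* (V →L[ℂ] V)} (hT : IsUnitaryRep T) (g : G) (v : V)
    (hv : v ≠ 0) (μ : ℂ) (h : T g v = μ • v) : ‖μ‖ = 1 := by
  have h1 := norm_apply_eq hT g v
  rw [h, norm_smul] at h1
  have : ‖v‖ ≠ 0 := norm_ne_zero_iff.mpr hv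
  exact mul_right_cancel₀ this (by rw [h1, one_mul])

/-- eigenvectors of a unitary operator for distinct eigenvalues are orthogonal. -/
theorem inner_eq_zero_of_eigen {T : G →* (V →L[ℂ] V)} (hT : IsUnitaryRep T) (g : G) (v v' : V)
    (hv' : v' ≠ 0) (μ μ' : ℂ) (h : T g v = μ • v) (h' : T g v' = μ' • v') (hne : μ' ≠ μ) :
    ⟪v', v⟫_ℂ = 0 := by
  by_contra h0
  have h1 := hT g v' v
  rw [h, h', inner_smul_left, inner_smul_right] at h1
  have hn := norm_eigenvalue_eq_one hT g v' hv' μ' h'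
  have h2 : conj μ' * μ' = 1 := by
    rw [mul_comm, Complex.mul_conj, Complex.normSq_eq_norm_sq, hn]; simp
  have h3 : conj μ' * μ = 1 := by
    have : (conj μ' * μ) * ⟪v', v⟫_ℂ = 1 * ⟪v', v⟫_ℂ := by rw [one_mul, mul_assoc]; exact h1
    exact mul_right_cancel₀ h0 this
  have h4 : conj μ' ≠ 0 := by
    intro h; rw [h, zero_mul] at h2; exact zero_ne_one h2
  exact hne (mul_left_cancel₀ h4 (h2.trans h3.symm))

theorem eq_of_commute_conj {T : G →* (V →L[ℂ] V)} (hT : IsUnitaryRep T)
    (hinj : Function.Injective T) (a w : G) (hc : Commute a (w * a * w⁻¹))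
    (hw : ‖T w - 1‖ < 1) : w * a * w⁻¹ = a := by
  by_contra hne
  set d := w * a * w⁻¹ with hd
  set e := a⁻¹ * d with he
  have he1 : e ≠ 1 := by
    intro h; apply hne; rw [he] at h; exact (inv_mul_eq_one.mp h).symm
  have hTe : T e ≠ 1 := fun h => he1 (hinj (h.trans (map_one T).symm))
  have hae : Commute a e := by
    rw [he]; exact (Commute.refl a).inv_right.mul_right hc
  -- an eigenvector of `T e` with eigenvalue `≠ 1`
  obtain ⟨u, hu0, ζ, hζ, huζ⟩ : ∃ u : V, u ≠ 0 ∧ ∃ ζ : ℂ, ζ ≠ 1 ∧ T e u = ζ • u := by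
    set K : Submodule ℂ V := LinearMap.ker ((T e : V →ₗ[ℂ] V) - 1) with hK
    have hKmem : ∀ k, k ∈ K ↔ T e k = k := by
      intro k; rw [hK, LinearMap.mem_ker]; simp [sub_eq_zero]
    have hKtop : K ≠ ⊤ := by
      intro h; apply hTe; ext v
      have : v ∈ K := by rw [h]; trivial
      simpa using (hKmem v).mp this
    have hKo : Kᗮ ≠ ⊥ := fun h => hKtop (Submodule.orthogonal_eq_bot_iff.mp h)
    have hinv : ∀ v ∈ Kᗮ, (T e : V →ₗ[ℂ] V) v ∈ Kᗮ := by
      intro v hv
      rw [Submodule.mem_orthogonal] at hv ⊢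
      intro k hk
      have := hT e k v
      rw [(hKmem k).mp hk] at this
      simpa [this] using hv k hk
    obtain ⟨u, huK, hu0, ζ, huζ⟩ := exists_eigvec_in (T e : V →ₗ[ℂ] V) Kᗮ hinv hKo
    refine ⟨u, hu0, ζ, ?_, by simpa using huζ⟩
    rintro rfl
    have huK' : u ∈ K := (hKmem u).mpr (by simpa using huζ)
    exact hu0 (inner_self_eq_zero.mp ((Submodule.mem_orthogonal _ _).mp huK u huK'))
  -- a common eigenvector of `T a` and `T e`
  obtain ⟨v, hvζ, hv0, μ, hvμ⟩ : ∃ v : V, T e v = ζ • v ∧ v ≠ 0 ∧ ∃ μ : ℂ, T a v = μ • v := by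
    set E : Submodule ℂ V := Module.End.eigenspace (T e : V →ₗ[ℂ] V) ζ with hE
    have hEmem : ∀ k, k ∈ E ↔ T e k = ζ • k := by
      intro k; rw [hE, Module.End.mem_eigenspace_iff]; simp
    have hE0 : E ≠ ⊥ := by
      intro h
      have : u ∈ E := (hEmem u).mpr huζ
      rw [h, Submodule.mem_bot] at this; exact hu0 this
    have hinv : ∀ v ∈ E, (T a : V →ₗ[ℂ] V) v ∈ E := by
      intro v hv
      rw [hEmem] at hv ⊢
      have h1 : T e (T a v) = T a (T e v) := by
        have : T e * T a = T a * T e := by rw [← map_mul, ← map_mul, hae.eq]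
        exact congrArg (fun f : V →L[ℂ] V => f v) this
      simp only [ContinuousLinearMap.coe_coe]
      rw [h1, hv, map_smul]
    obtain ⟨v, hvE, hv0, μ, hvμ⟩ := exists_eigvec_in (T a : V →ₗ[ℂ] V) E hinv hE0
    exact ⟨v, (hEmem v).mp hvE, hv0, μ, by simpa using hvμ⟩
  -- `T w⁻¹ v` is an eigenvector of `T a` with eigenvalue `μ * ζ`
  set v' := T w⁻¹ v with hv'
  have hTd : T d v = (μ * ζ) • v := by
    have : d = a * e := by rw [he, mul_inv_cancel_left]
    rw [this, map_mul, mul_apply_eq_comp, hvζ, map_smul, hvμ, smul_smul, mul_comm]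
  have hv'e : T a v' = (μ * ζ) • v' := by
    have h1 : a * w⁻¹ = w⁻¹ * d := by rw [hd]; group
    rw [hv', ← mul_apply_eq_comp, ← map_mul, h1, map_mul,
      mul_apply_eq_comp, hTd, map_smul]
  have hμ1 := norm_eigenvalue_eq_one hT a v hv0 μ hvμ
  have hμ0 : μ ≠ 0 := by rintro rfl; simp at hμ1
  have hv'0 : v' ≠ 0 := by
    intro h
    have := norm_apply_eq hT w⁻¹ v
    rw [← hv', h, norm_zero] at this
    exact hv0 (norm_eq_zero.mp this.symm)
  have hne2 : μ * ζ ≠ μ := by
    intro h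
    exact hζ (mul_left_cancel₀ hμ0 (h.trans (mul_one μ).symm))
  have horth : ⟪v', v⟫_ℂ = 0 := inner_eq_zero_of_eigen hT a v v' hv'0 μ (μ * ζ) hvμ hv'e hne2
  -- norm estimate
  have hn1 : ‖v - v'‖ ≤ ‖T w - 1‖ * ‖v‖ := by
    have : v - v' = (T w⁻¹ * (T w - 1)) v := by
      rw [mul_sub, map_inv_mul_self, mul_one, hv']; simp
    rw [this]
    exact ((T w⁻¹ * (T w - 1)).le_opNorm v).trans
      (mul_le_mul_of_nonneg_right (norm_mul_left_le hT _ _) (norm_nonneg v))
  have hvpos : 0 < ‖v‖ := norm_pos_iff.mpr hv0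
  have hn2 : ‖v‖ ^ 2 ≤ ‖v - v'‖ * ‖v‖ := by
    have h1 : ⟪v - v', v⟫_ℂ = ⟪v, v⟫_ℂ := by rw [inner_sub_left, horth, sub_zero]
    have h2 : ‖v‖ ^ 2 = RCLike.re ⟪v - v', v⟫_ℂ := by
      rw [h1, inner_self_eq_norm_sq (𝕜 := ℂ)]
    rw [h2]
    exact re_inner_le_norm _ _
  have h3 : ‖v - v'‖ * ‖v‖ ≤ ‖T w - 1‖ * ‖v‖ * ‖v‖ := mul_le_mul_of_nonneg_right hn1 hvpos.le
  have h4 : ‖T w - 1‖ * ‖v‖ * ‖v‖ < 1 * ‖v‖ * ‖v‖ :=
    mul_lt_mul_of_pos_right (mul_lt_mul_of_pos_right hw hvpos) hvpos
  have h5 : ‖v‖ ^ 2 = 1 * ‖v‖ * ‖v‖ := by ring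
  linarith


theorem comm_of_norm_lt [Finite G] {T : G →* (V →L[ℂ] V)} (hT : IsUnitaryRep T)
    (hinj : Function.Injective T) (x : G) (hx : ‖T x - opK V‖ < 1 / 2) :
    ∀ w : G, ‖T w - 1‖ < 1 → x * w * x⁻¹ * w⁻¹ = 1 := by
  let r : G → G → Prop := fun a b => ‖T a - 1‖ < ‖T b - 1‖
  haveI : IsTrans G r := ⟨fun a b c h1 h2 => lt_trans h1 h2⟩
  haveI : Std.Irrefl r := ⟨fun a h => lt_irrefl _ h⟩
  have wf : WellFounded r := Finite.wellFounded_of_trans_of_irrefl r
  intro w
  induction w using wf.induction with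
  | _ w ih =>
    intro hw
    by_contra hne
    set c := x * w * x⁻¹ * w⁻¹ with hc
    have hw0 : 0 < ‖T w - 1‖ := by
      rw [norm_pos_iff, sub_ne_zero]
      intro h
      have : w = 1 := hinj (h.trans (map_one T).symm)
      apply hne; rw [hc, this]; group
    have h1 := norm_commutator_le hT x w
    have h2 : ‖T c - 1‖ < ‖T w - 1‖ := by nlinarith [norm_nonneg (T x - opK V)]
    have h3 := ih c h2 (h2.trans hw)
    have hxc : Commute x c := by
      have : x * c * x⁻¹ = c := mul_inv_eq_one.mp h3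
      exact mul_inv_eq_iff_eq_mul.mp this
    have hcc : w * x⁻¹ * w⁻¹ = x⁻¹ * c := by rw [hc]; group
    have hcomm : Commute x⁻¹ (w * x⁻¹ * w⁻¹) := by
      rw [hcc]; exact (Commute.refl x⁻¹).mul_right hxc.inv_left
    have := eq_of_commute_conj hT hinj x⁻¹ w hcomm hw
    apply hne
    have hc2 : c = x * (w * x⁻¹ * w⁻¹) := by rw [hc]; group
    rw [hc2, this, mul_inv_cancel]

theorem norm_opK_sub_one_le : ‖opK V - 1‖ ≤ 1 - cK := by
  have h1 : opK V - 1 = ((cK : ℂ) - 1) • (1 : V →L[ℂ] V) := by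
    rw [opK, Algebra.algebraMap_eq_smul_one, sub_smul, one_smul]
  have hc : cK ≤ 1 := by
    unfold cK
    have : Real.sqrt 3 ≤ 2 := by
      rw [show (2:ℝ) = Real.sqrt 4 by rw [show (4:ℝ) = 2 ^ 2 by norm_num, Real.sqrt_sq (by norm_num)]]
      exact Real.sqrt_le_sqrt (by norm_num)
    linarith
  rw [h1, norm_smul]
  have h2 : ‖(cK : ℂ) - 1‖ = 1 - cK := by
    rw [← Complex.ofReal_one, ← Complex.ofReal_sub, Complex.norm_real, Real.norm_eq_abs,
      abs_sub_comm, abs_of_nonneg (by linarith)]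
  rw [h2]
  have h3 : ‖(1 : V →L[ℂ] V)‖ ≤ 1 := ContinuousLinearMap.norm_id_le
  nlinarith

theorem cK_gt : (1 : ℝ) / 2 < cK := by
  unfold cK
  have : (1 : ℝ) < Real.sqrt 3 := by
    rw [show (1:ℝ) = Real.sqrt 1 by simp]
    exact Real.sqrt_lt_sqrt (by norm_num) (by norm_num)
  linarith

theorem norm_sub_one_lt {T : G →* (V →L[ℂ] V)} (y : G) (hy : ‖T y - opK V‖ < 1 / 2) :
    ‖T y - 1‖ < 1 := by
  have h1 : T y - 1 = (T y - opK V) + (opK V - 1) := by abel
  rw [h1]
  have := norm_add_le (T y - opK V) (opK V - 1)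
  have := norm_opK_sub_one_le (V := V)
  have := cK_gt
  linarith

theorem commute_of_mem [Finite G] {T : G →* (V →L[ℂ] V)} (hT : IsUnitaryRep T)
    (hinj : Function.Injective T) (x y : G) (hx : ‖T x - opK V‖ < 1 / 2)
    (hy : ‖T y - opK V‖ < 1 / 2) : x * y = y * x := by
  have := comm_of_norm_lt hT hinj x hx y (norm_sub_one_lt y hy)
  have h1 : x * y * x⁻¹ = y := mul_inv_eq_one.mp this
  exact mul_inv_eq_iff_eq_mul.mp h1


theorem star_map {T : G →* (V →L[ℂ] V)} (hT : IsUnitaryRep T) (g : G) : star (T g) = T g⁻¹ := by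
  rw [ContinuousLinearMap.star_eq_adjoint]
  symm
  rw [ContinuousLinearMap.eq_adjoint_iff]
  intro x y
  have h := hT g (T g⁻¹ x) y
  have h2 : T g (T g⁻¹ x) = x := by
    rw [← mul_apply_eq_comp, map_mul_inv_self]; rfl
  rw [h2] at h
  exact h.symm

theorem star_opK : star (opK V) = opK V := by
  rw [opK, ← algebraMap_star_comm]
  congr 1
  exact Complex.conj_ofReal _

theorem exists_eigvec_of_mem_spectrum (a : V →L[ℂ] V) (k : ℂ) (hk : k ∈ spectrum ℂ a) :
    ∃ v : V, v ≠ 0 ∧ a v = k • v := by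
  have h1 : a = Module.End.toContinuousLinearMap V (a : V →ₗ[ℂ] V) := rfl
  rw [h1, AlgEquiv.spectrum_eq] at hk
  have h2 := Module.End.hasEigenvalue_iff_mem_spectrum.mpr hk
  obtain ⟨w, hw⟩ := h2.exists_hasEigenvector
  exact ⟨w, hw.2, by simpa using hw.apply_eq_smul⟩

theorem norm_sub_lt_of_eigen {T : G →* (V →L[ℂ] V)} (hT : IsUnitaryRep T) (g : G)
    (h : ∀ v : V, v ≠ 0 → ∀ μ : ℂ, T g v = μ • v → ‖μ - cK‖ < 1 / 2) :
    ‖T g - opK V‖ < 1 / 2 := by
  rcases subsingleton_or_nontrivial V with hV | hV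
  · have : T g - opK V = 0 := by ext v; exact Subsingleton.elim _ _
    rw [this, norm_zero]; norm_num
  · set a := T g - opK V with ha
    have hn : IsStarNormal a := by
      constructor
      show star a * a = a * star a
      rw [ha, star_sub, star_map hT, star_opK]
      have e1 := opK_comm (T g)
      have e2 := opK_comm (T g⁻¹)
      simp only [sub_mul, mul_sub]
      rw [map_mul_inv_self, map_inv_mul_self, e1, e2]
      abel
    obtain ⟨k, hk, hkn⟩ := spectrum.exists_nnnorm_eq_spectralRadius a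
    rw [hn.spectralRadius_eq_nnnorm] at hkn
    have hak : ‖a‖ = ‖k‖ := by
      have := ENNReal.coe_injective hkn
      exact (congrArg NNReal.toReal this).symm
    obtain ⟨v, hv0, hv⟩ := exists_eigvec_of_mem_spectrum a k hk
    have h3 : T g v = (k + cK) • v := by
      have : T g v = a v + opK V v := by rw [ha]; simp
      rw [this, hv, add_smul]
      congr 1
    have := h v hv0 (k + cK) h3
    rw [hak]
    simpa using this

theorem eigenvalue_mem_diag {ι : Type*} [Fintype ι] (b : Module.Basis ι ℂ V) (a : V →L[ℂ] V)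
    (d : ι → ℂ) (hd : ∀ i, a (b i) = d i • b i) (v : V) (hv : v ≠ 0) (μ : ℂ)
    (hμ : a v = μ • v) : ∃ i, d i = μ := by
  by_contra hcon
  push Not at hcon
  apply hv
  have h1 : a v = ∑ j, (b.repr v j * d j) • b j := by
    conv_lhs => rw [← b.sum_repr v]
    rw [map_sum]
    refine Finset.sum_congr rfl (fun j _ => ?_)
    rw [map_smul, hd, smul_smul]
  have h2 : ∀ i, b.repr v i = 0 := by
    intro i
    have e1 : b.repr (a v) i = b.repr v i * d i := by
      rw [h1, b.repr_sum_self]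
    have e2 : b.repr (a v) i = μ * b.repr v i := by
      rw [hμ, map_smul]; simp
    have e3 : b.repr v i * (d i - μ) = 0 := by rw [mul_sub, ← e1, e2]; ring
    rcases mul_eq_zero.mp e3 with h | h
    · exact h
    · exact absurd (sub_eq_zero.mp h) (hcon i)
  have h3 : b.repr v = 0 := by ext i; simpa using h2 i
  exact b.repr.map_eq_zero_iff.mp h3

/-- the box of a complex number: which of the twelve arcs of `30` degrees its argument is in. -/
noncomputable def box (z : ℂ) : ℤ := ⌈6 * Complex.arg z / Real.pi⌉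

theorem box_mem (z : ℂ) : box z ∈ Finset.Ioc (-6 : ℤ) 6 := by
  have hpi := Real.pi_pos
  rw [Finset.mem_Ioc, box]
  constructor
  · rw [Int.lt_ceil]
    have := Complex.neg_pi_lt_arg z
    rw [lt_div_iff₀ hpi]
    push_cast; nlinarith
  · rw [Int.ceil_le]
    have := Complex.arg_le_pi z
    rw [div_le_iff₀ hpi]
    push_cast; nlinarith

theorem box_spec (z₁ z₂ : ℂ) (h1 : ‖z₁‖ = 1) (h2 : ‖z₂‖ = 1) (h : box z₁ = box z₂) :
    ‖z₁⁻¹ * z₂ - cK‖ < 1 / 2 := by
  have hpi := Real.pi_pos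
  set θ₁ := Complex.arg z₁ with hθ₁
  set θ₂ := Complex.arg z₂ with hθ₂
  have e1 : z₁ = Complex.exp (θ₁ * Complex.I) := by
    have := Complex.norm_mul_exp_arg_mul_I z₁
    rw [h1] at this; simpa using this.symm
  have e2 : z₂ = Complex.exp (θ₂ * Complex.I) := by
    have := Complex.norm_mul_exp_arg_mul_I z₂
    rw [h2] at this; simpa using this.symm
  set φ := θ₂ - θ₁ with hφ
  have e3 : z₁⁻¹ * z₂ = Complex.exp (φ * Complex.I) := by
    rw [e1, e2, ← Complex.exp_neg, ← Complex.exp_add, hφ]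
    congr 1; push_cast; ring
  have hφabs : |φ| < Real.pi / 6 := by
    have a1 := Int.le_ceil (6 * θ₁ / Real.pi)
    have a2 := Int.ceil_lt_add_one (6 * θ₁ / Real.pi)
    have b1 := Int.le_ceil (6 * θ₂ / Real.pi)
    have b2 := Int.ceil_lt_add_one (6 * θ₂ / Real.pi)
    have hb : (⌈6 * θ₁ / Real.pi⌉ : ℝ) = ⌈6 * θ₂ / Real.pi⌉ := by
      have : box z₁ = box z₂ := h
      unfold box at this
      exact_mod_cast this
    have c1 : 6 * θ₁ / Real.pi - 6 * θ₂ / Real.pi < 1 := by linarith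
    have c2 : 6 * θ₂ / Real.pi - 6 * θ₁ / Real.pi < 1 := by linarith
    rw [← sub_div, div_lt_iff₀ hpi] at c1 c2
    rw [abs_lt]
    constructor <;> linarith
  have hcos : cK < Real.cos φ := by
    have := Real.cos_lt_cos_of_nonneg_of_le_pi (abs_nonneg φ) (by linarith : Real.pi / 6 ≤ Real.pi)
      hφabs
    rw [Real.cos_abs, Real.cos_pi_div_six] at this
    exact this
  have hcK2 : cK ^ 2 = 3 / 4 := by
    unfold cK; rw [div_pow, Real.sq_sqrt (by norm_num)]; norm_num
  have hcK0 : 0 < cK := by have := cK_gt; linarith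
  have hsq : ‖z₁⁻¹ * z₂ - cK‖ ^ 2 < (1 / 2) ^ 2 := by
    rw [e3, Complex.sq_norm, Complex.normSq_apply]
    simp only [Complex.sub_re, Complex.sub_im, Complex.exp_ofReal_mul_I_re,
      Complex.exp_ofReal_mul_I_im, Complex.ofReal_re, Complex.ofReal_im, sub_zero]
    have := Real.sin_sq_add_cos_sq φ
    nlinarith
  exact lt_of_pow_lt_pow_left₀ 2 (by norm_num) hsq


theorem exists_joint_basis [Finite G] (T : G →* (V →L[ℂ] V)) (H : Subgroup G)
    (hH : ∀ x ∈ H, ∀ y ∈ H, x * y = y * x) :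
    ∃ (ι : Type u) (_ : Fintype ι) (b : Module.Basis ι ℂ V) (χ : ι → H → ℂ),
      ∀ i (h : H), T h (b i) = χ i h • b i := by
  classical
  let f : H → Module.End ℂ V := fun h => (T (h : G) : V →ₗ[ℂ] V)
  have hf : ∀ h, f h = (Module.End.toContinuousLinearMap V).symm (T (h : G)) := fun h => rfl
  have hcomm : Pairwise fun i j => Commute (f i) (f j) := by
    intro i j _
    show f i * f j = f j * f i
    rw [hf, hf, ← map_mul, ← map_mul, ← map_mul, ← map_mul, hH i i.2 j j.2]
  have hss : ∀ h, (f h).IsSemisimple := by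
    intro h
    have hcard : (Nat.card G : ℂ) ≠ 0 := by
      exact_mod_cast Nat.card_pos.ne'
    have hsq : Squarefree (Polynomial.X ^ Nat.card G - Polynomial.C (1 : ℂ)) :=
      (Polynomial.separable_X_pow_sub_C (1 : ℂ) hcard one_ne_zero).squarefree
    refine Module.End.isSemisimple_of_squarefree_aeval_eq_zero hsq ?_
    rw [map_sub, map_pow, Polynomial.aeval_X, Polynomial.aeval_C, hf, ← map_pow, ← map_pow,
      pow_card_eq_one', map_one, map_one, map_one, sub_self]
  have h' : ∀ h, ⨆ μ, (f h).maxGenEigenspace μ = ⊤ :=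
    fun h => Module.End.iSup_maxGenEigenspace_eq_top _
  have key :=
    Module.End.iSup_iInf_maxGenEigenspace_eq_top_of_iSup_maxGenEigenspace_eq_top_of_commute
      f hcomm h'
  let J : Set V := {v | ∃ χ : H → ℂ, ∀ h : H, T (h : G) v = χ h • v}
  have hJ : Submodule.span ℂ J = ⊤ := by
    rw [eq_top_iff, ← key]
    refine iSup_le (fun χ v hv => Submodule.subset_span ⟨χ, fun h => ?_⟩)
    have h1 := (Submodule.mem_iInf _).mp hv h
    rw [(hss h).isFinitelySemisimple.maxGenEigenspace_eq_eigenspace,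
      Module.End.mem_eigenspace_iff] at h1
    exact h1
  obtain ⟨b, hbJ, hspan, hli⟩ := exists_linearIndependent ℂ J
  let B : Module.Basis b ℂ V := Module.Basis.mk hli (by rw [Subtype.range_coe, hspan, hJ])
  haveI : Finite b := Module.Finite.finite_basis B
  refine ⟨b, Fintype.ofFinite b, B, fun i h => Classical.choose (hbJ i.2) h, fun i h => ?_⟩
  have := Classical.choose_spec (hbJ i.2) h
  rw [Module.Basis.mk_apply]
  exact this

theorem index_le_of_map {H : Type*} [Group H] (K : Subgroup H) {Y : Type*} [Finite Y]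
    (β : H → Y) (hβ : ∀ a b, β a = β b → a⁻¹ * b ∈ K) : K.index ≤ Nat.card Y := by
  rw [Subgroup.index]
  apply Nat.card_le_card_of_injective (fun q : H ⧸ K => β q.out)
  intro q₁ q₂ h
  have := hβ _ _ h
  rw [← QuotientGroup.eq] at this
  simpa using this

theorem exists_abelian_normal [Finite G] {T : G →* (V →L[ℂ] V)} (hT : IsUnitaryRep T)
    (hinj : Function.Injective T) :
    ∃ A : Subgroup G, A.Normal ∧ (∀ x ∈ A, ∀ y ∈ A, x * y = y * x) ∧
      ∀ H : Subgroup G, (∀ x ∈ H, ∀ y ∈ H, x * y = y * x) →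
        (A.subgroupOf H).index ≤ 12 ^ Module.finrank ℂ V := by
  classical
  set S : Set G := {g | ‖T g - opK V‖ < 1 / 2} with hS
  have hSconj : Group.conjugatesOfSet S = S := by
    apply Set.Subset.antisymm
    · intro a ha
      rw [Group.mem_conjugatesOfSet_iff] at ha
      obtain ⟨b, hb, hba⟩ := ha
      obtain ⟨c, rfl⟩ := isConj_iff.mp hba
      exact lt_of_le_of_lt (norm_conj_le hT c b) hb
    · exact Group.subset_conjugatesOfSet
  refine ⟨Subgroup.closure S, ?_, ?_, ?_⟩
  · have : Subgroup.closure S = Subgroup.normalClosure S := by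
      unfold Subgroup.normalClosure; rw [hSconj]
    rw [this]; exact Subgroup.normalClosure_normal
  · have h1 : S ⊆ Subgroup.centralizer S := by
      intro y hy
      rw [SetLike.mem_coe, Subgroup.mem_centralizer_iff]
      intro x hx
      exact commute_of_mem hT hinj x y hx hy
    have h2 : Subgroup.closure S ≤ Subgroup.centralizer S := (Subgroup.closure_le _).mpr h1
    have h3 : Subgroup.closure S ≤ Subgroup.centralizer (Subgroup.closure S : Set G) :=
      (Subgroup.closure_le_centralizer_centralizer S).trans (Subgroup.centralizer_le h2)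
    intro x hx y hy
    exact (Subgroup.mem_centralizer_iff.mp (h3 hy)) x hx
  · intro H hH
    obtain ⟨ι, _, b, χ, hχ⟩ := exists_joint_basis T H hH
    have hχn : ∀ i (h : H), ‖χ i h‖ = 1 :=
      fun i h => norm_eigenvalue_eq_one hT h (b i) (b.ne_zero i) _ (hχ i h)
    let β : H → (ι → Finset.Ioc (-6 : ℤ) 6) := fun h i => ⟨box (χ i h), box_mem _⟩
    have hβ : ∀ h₁ h₂ : H, β h₁ = β h₂ → h₁⁻¹ * h₂ ∈ (Subgroup.closure S).subgroupOf H := by
      intro h₁ h₂ hb
      rw [Subgroup.mem_subgroupOf]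
      apply Subgroup.subset_closure
      show ‖T ((h₁⁻¹ * h₂ : H) : G) - opK V‖ < 1 / 2
      apply norm_sub_lt_of_eigen hT
      intro v hv μ hμ
      have hd : ∀ i, T ((h₁⁻¹ * h₂ : H) : G) (b i) = ((χ i h₁)⁻¹ * χ i h₂) • b i := by
        intro i
        have hne : χ i h₁ ≠ 0 := by
          intro h0; have := hχn i h₁; rw [h0, norm_zero] at this; exact zero_ne_one this
        have e1 : T ((h₁ : G)⁻¹) (b i) = (χ i h₁)⁻¹ • b i := by
          have := congrArg (T ((h₁ : G)⁻¹)) (hχ i h₁)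
          rw [← mul_apply_eq_comp, map_inv_mul_self, map_smul] at this
          rw [eq_inv_smul_iff₀ hne]
          exact this.symm
        rw [Subgroup.coe_mul, Subgroup.coe_inv, map_mul, mul_apply_eq_comp, hχ i h₂, map_smul,
          e1, smul_smul, mul_comm]
      obtain ⟨i, hi⟩ := eigenvalue_mem_diag b _ _ hd v hv μ hμ
      rw [← hi]
      apply box_spec _ _ (hχn i h₁) (hχn i h₂)
      have := congrFun hb i
      exact congrArg Subtype.val this
    refine (index_le_of_map _ β hβ).trans ?_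
    rw [Nat.card_eq_fintype_card, Fintype.card_fun, Fintype.card_coe, Int.card_Ioc,
      Module.finrank_eq_card_basis b]
    rw [show Int.toNat (6 - -6) = 12 from rfl]


/-! ### A unitary model of a coordinate representation -/

/-- A copy of the coordinate space, carrying the averaged inner product. -/
def W {G : Type v} [Group G] {n : ℕ} (_ρ : Representation ℂ G (Fin n → ℂ)) : Type := Fin n → ℂ

section Wsec

variable {G : Type v} [Group G] {n : ℕ} (ρ : Representation ℂ G (Fin n → ℂ))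

instance : AddCommGroup (W ρ) := inferInstanceAs (AddCommGroup (Fin n → ℂ))
instance : Module ℂ (W ρ) := inferInstanceAs (Module ℂ (Fin n → ℂ))
instance : FiniteDimensional ℂ (W ρ) := inferInstanceAs (FiniteDimensional ℂ (Fin n → ℂ))

/-- the identification of the copy with the coordinate space. -/
def toW : (Fin n → ℂ) ≃ₗ[ℂ] W ρ := LinearEquiv.refl ℂ _

variable [Fintype G]

/-- the averaged inner product. -/
noncomputable def wInner (u v : W ρ) : ℂ :=
  ∑ g : G, ∑ i, conj (ρ g ((toW ρ).symm u) i) * ρ g ((toW ρ).symm v) i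

theorem wInner_self_re (u : W ρ) :
    (wInner ρ u u).re = ∑ g : G, ∑ i, Complex.normSq (ρ g ((toW ρ).symm u) i) := by
  unfold wInner
  rw [Complex.re_sum]
  refine Finset.sum_congr rfl (fun g _ => ?_)
  rw [Complex.re_sum]
  refine Finset.sum_congr rfl (fun i _ => ?_)
  rw [mul_comm, Complex.mul_conj]
  simp

noncomputable instance wCore : InnerProductSpace.Core ℂ (W ρ) where
  inner := wInner ρ
  conj_inner_symm x y := by
    simp only [wInner, map_sum, map_mul, Complex.conj_conj]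
    refine Finset.sum_congr rfl (fun g _ => Finset.sum_congr rfl (fun i _ => ?_))
    ring
  re_inner_nonneg x := by
    show 0 ≤ (wInner ρ x x).re
    rw [wInner_self_re]
    exact Finset.sum_nonneg (fun g _ => Finset.sum_nonneg (fun i _ => Complex.normSq_nonneg _))
  add_left x y z := by
    simp only [wInner, map_add, Pi.add_apply, add_mul, Finset.sum_add_distrib]
  smul_left x y r := by
    simp only [wInner, map_smul, Pi.smul_apply, smul_eq_mul, map_mul, Finset.mul_sum]
    refine Finset.sum_congr rfl (fun g _ => Finset.sum_congr rfl (fun i _ => ?_))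
    ring
  definite x h := by
    have h1 : (wInner ρ x x).re = 0 := by
      have : wInner ρ x x = 0 := h
      rw [this]; rfl
    rw [wInner_self_re] at h1
    have h2 := (Finset.sum_eq_zero_iff_of_nonneg
      (fun g _ => Finset.sum_nonneg (fun i _ => Complex.normSq_nonneg _))).mp h1 1
      (Finset.mem_univ _)
    have h3 : ∀ i, ((toW ρ).symm x) i = 0 := by
      intro i
      have := (Finset.sum_eq_zero_iff_of_nonneg (fun i _ => Complex.normSq_nonneg _)).mp h2 i
        (Finset.mem_univ _)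
      simpa using this
    have h4 : (toW ρ).symm x = 0 := funext h3
    exact (toW ρ).symm.map_eq_zero_iff.mp h4

noncomputable instance : NormedAddCommGroup (W ρ) :=
  InnerProductSpace.Core.toNormedAddCommGroup (𝕜 := ℂ)

noncomputable instance : InnerProductSpace ℂ (W ρ) := InnerProductSpace.ofCore _

theorem inner_W (u v : W ρ) : ⟪u, v⟫_ℂ = wInner ρ u v := rfl

/-- the representation on the copy, as linear maps. -/
def wLin (g : G) : W ρ →ₗ[ℂ] W ρ :=
  (toW ρ).toLinearMap ∘ₗ ρ g ∘ₗ (toW ρ).symm.toLinearMap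

theorem wLin_apply (g : G) (u : W ρ) : (toW ρ).symm (wLin ρ g u) = ρ g ((toW ρ).symm u) := by
  simp [wLin]

/-- the representation on the copy, as continuous linear maps. -/
noncomputable def wRep : G →* (W ρ →L[ℂ] W ρ) where
  toFun g := LinearMap.toContinuousLinearMap (wLin ρ g)
  map_one' := by
    ext u
    simp [wLin]
  map_mul' g h := by
    ext u
    simp [wLin]

theorem wRep_apply (g : G) (u : W ρ) :
    (toW ρ).symm (wRep ρ g u) = ρ g ((toW ρ).symm u) := wLin_apply ρ g u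

theorem wRep_unitary : IsUnitaryRep (wRep ρ) := by
  intro g u v
  rw [inner_W, inner_W]
  unfold wInner
  simp only [wRep_apply]
  have : ∀ h : G, ∀ x : Fin n → ℂ, ρ h (ρ g x) = ρ (h * g) x := by
    intro h x; rw [map_mul]; rfl
  simp only [this]
  exact Fintype.sum_equiv (Equiv.mulRight g) _ _ (fun h => rfl)

theorem wRep_injective (hinj : Function.Injective ρ) : Function.Injective (wRep ρ) := by
  intro g h hgh
  apply hinj
  refine LinearMap.ext (fun x => ?_)
  have h1 := congrArg (fun f : W ρ →L[ℂ] W ρ => (toW ρ).symm (f (toW ρ x))) hgh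
  simp only [wRep_apply, LinearEquiv.symm_apply_apply] at h1
  exact h1

theorem finrank_W : Module.finrank ℂ (W ρ) = n := by
  rw [← (toW ρ).finrank_eq, Module.finrank_fin_fun]

end Wsec

theorem exists_abelian_normal_of_rep {G : Type v} [Group G] [Finite G] {n : ℕ}
    (ρ : Representation ℂ G (Fin n → ℂ)) (hinj : Function.Injective ρ) :
    ∃ A : Subgroup G, A.Normal ∧ (∀ x ∈ A, ∀ y ∈ A, x * y = y * x) ∧
      ∀ H : Subgroup G, (∀ x ∈ H, ∀ y ∈ H, x * y = y * x) →
        (A.subgroupOf H).index ≤ 12 ^ n := by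
  haveI := Fintype.ofFinite G
  have := exists_abelian_normal (wRep_unitary ρ) (wRep_injective ρ hinj)
  rwa [finrank_W] at this

end Cfsg.Agent.H92.Jordan
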