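/-
helper92: groups with the order type of a supersolvable group are solvable.

For a threshold `t`, `bigSet X t` is the set of elements whose order has all prime factors `≥ t`.
A finite group `X` has property `CT` when for every `t` the set `bigSet X t` has exactly as many
elements as the `{primes ≥ t}`-part of `|X|`.  Supersolvable groups have `CT` (Sylow tower),
`CT` only depends on the order type, and `CT` forces a Sylow tower, hence solvability.
-/
import Mathlib
import Cfsg.Prelude.Def_SolvableStructure
import Cfsg.Agent.H12.Supersolvable4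

set_option autoImplicit false
set_option linter.unusedSectionVars false
set_option linter.unusedVariables false
set_option linter.style.haveILetI false

namespace Cfsg.Agent.H92.SuperOrd

universe u

/-- Every prime factor of `n` is at least `t`. -/
def Big (t n : ℕ) : Prop := ∀ q : ℕ, q.Prime → q ∣ n → t ≤ q

theorem big_of_dvd {t m n : ℕ} (h : Big t n) (hd : m ∣ n) : Big t m :=
  fun q hq hqm => h q hq (dvd_trans hqm hd)

theorem big_mul {t a b : ℕ} (ha : Big t a) (hb : Big t b) : Big t (a * b) := by
  intro q hq hqab
  rcases (Nat.Prime.dvd_mul hq).mp hqab with h | h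
  · exact ha q hq h
  · exact hb q hq h

theorem big_one (t : ℕ) : Big t 1 := by
  intro q hq hq1
  exact absurd (Nat.dvd_one.mp hq1) hq.ne_one

theorem big_prime_pow {t p k : ℕ} (hp : p.Prime) (htp : t ≤ p) : Big t (p ^ k) := by
  intro q hq hqd
  have := (Nat.prime_dvd_prime_iff_eq hq hp).mp (hq.dvd_of_dvd_pow hqd)
  rw [this]; exact htp

/-- The elements whose order has all prime factors `≥ t`. -/
def bigSet (X : Type*) [Group X] (t : ℕ) : Set X := {x | Big t (orderOf x)}

/-- The counting property. -/
def CT (X : Type*) [Group X] : Prop :=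
  ∀ t : ℕ, ∃ d : ℕ, d ∣ Nat.card X ∧ Big t d ∧
    (∀ q : ℕ, q.Prime → q ∣ Nat.card X / d → q < t) ∧ (bigSet X t).ncard = d

theorem bigSet_eq_one {X : Type*} [Group X] [Finite X] {t : ℕ}
    (h : ∀ q : ℕ, q.Prime → q ∣ Nat.card X → q < t) : bigSet X t = {1} := by
  ext x
  simp only [bigSet, Set.mem_setOf_eq, Set.mem_singleton_iff]
  constructor
  · intro hx
    by_contra hne
    have ho : orderOf x ≠ 1 := fun h1 => hne (orderOf_eq_one_iff.mp h1)
    obtain ⟨q, hq, hqd⟩ := Nat.exists_prime_and_dvd ho
    have h1 := hx q hq hqd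
    have h2 := h q hq (dvd_trans hqd (orderOf_dvd_natCard x))
    omega
  · rintro rfl
    rw [orderOf_one]
    exact big_one t

theorem mem_bigSet_iff_mk {X : Type*} [Group X] [Finite X] (P : Subgroup X) [P.Normal]
    {p t : ℕ} (hp : p.Prime) (hP : IsPGroup p P) (htp : t ≤ p) (x : X) :
    x ∈ bigSet X t ↔ (x : X ⧸ P) ∈ bigSet (X ⧸ P) t := by
  simp only [bigSet, Set.mem_setOf_eq]
  constructor
  · intro hx
    refine big_of_dvd hx ?_
    apply orderOf_dvd_of_pow_eq_one
    rw [← QuotientGroup.mk_pow, pow_orderOf_eq_one, QuotientGroup.mk_one]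
  · intro hx q hq hqd
    have h1 : x ^ orderOf (x : X ⧸ P) ∈ P := by
      rw [← QuotientGroup.eq_one_iff, QuotientGroup.mk_pow, pow_orderOf_eq_one]
    have h2 : (x ^ orderOf (x : X ⧸ P)) ^ Nat.card P = 1 := by
      have h3 : ((⟨_, h1⟩ : P) ^ Nat.card P : P) = 1 := pow_card_eq_one'
      have h4 := congrArg (fun y : P => (y : X)) h3
      simp only [SubmonoidClass.coe_pow, OneMemClass.coe_one] at h4
      exact h4
    have h3 : orderOf x ∣ orderOf (x : X ⧸ P) * Nat.card P := by
      apply orderOf_dvd_of_pow_eq_one
      rw [pow_mul]; exact h2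
    rcases (Nat.Prime.dvd_mul hq).mp (dvd_trans hqd h3) with h | h
    · exact hx q hq h
    · haveI : Fact p.Prime := ⟨hp⟩
      obtain ⟨k, hk⟩ := hP.exists_card_eq
      rw [hk] at h
      exact big_prime_pow hp htp q hq h

theorem ncard_bigSet_eq {X : Type*} [Group X] [Finite X] (P : Subgroup X) [P.Normal]
    {p t : ℕ} (hp : p.Prime) (hP : IsPGroup p P) (htp : t ≤ p) :
    (bigSet X t).ncard = Nat.card P * (bigSet (X ⧸ P) t).ncard := by
  have h1 : bigSet X t = (QuotientGroup.mk : X → X ⧸ P) ⁻¹' (bigSet (X ⧸ P) t) := by
    ext x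
    exact mem_bigSet_iff_mk P hp hP htp x
  rw [h1, ← Nat.card_coe_set_eq, ← Nat.card_coe_set_eq,
    Nat.card_congr (QuotientGroup.preimageMkEquivSubgroupProdSet P (bigSet (X ⧸ P) t)),
    Nat.card_prod]

/-- The largest prime divisor of the order of a nontrivial finite group. -/
theorem exists_max_prime (n : ℕ) (hn : 1 < n) :
    ∃ p : ℕ, p.Prime ∧ p ∣ n ∧ ∀ q : ℕ, q.Prime → q ∣ n → q ≤ p := by
  have hne : n.primeFactors.Nonempty := Nat.nonempty_primeFactors.mpr hn
  refine ⟨n.primeFactors.max' hne, Nat.prime_of_mem_primeFactors (Finset.max'_mem _ hne),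
    Nat.dvd_of_mem_primeFactors (Finset.max'_mem _ hne), ?_⟩
  intro q hq hqn
  exact Finset.le_max' _ q (Nat.mem_primeFactors.mpr ⟨hq, hqn, by omega⟩)

theorem card_quotient_lt {X : Type*} [Group X] [Finite X] {p : ℕ} [Fact p.Prime]
    (hpd : p ∣ Nat.card X) (P : Sylow p X) [(P : Subgroup X).Normal] :
    Nat.card (X ⧸ (P : Subgroup X)) < Nat.card X := by
  have h1 := Subgroup.card_eq_card_quotient_mul_card_subgroup (P : Subgroup X)
  have h2 : 1 < Nat.card (P : Subgroup X) := by
    have h3 : p ∣ Nat.card (P : Subgroup X) := P.dvd_card_of_dvd_card hpd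
    have h4 : 0 < Nat.card (P : Subgroup X) := Nat.card_pos
    have := Nat.le_of_dvd h4 h3
    have := (Fact.out : p.Prime).one_lt
    omega
  have h5 : 0 < Nat.card (X ⧸ (P : Subgroup X)) := Nat.card_pos
  nlinarith

/-- Supersolvable groups have the counting property. -/
theorem ct_of_supersolvable : ∀ (n : ℕ) (G : Type u) [Group G] [Finite G],
    Nat.card G = n → Cfsg.IsSupersolvable G → CT G := by
  intro n
  induction n using Nat.strong_induction_on with
  | _ n ih =>
    intro G _ _ hn hG t
    by_cases h1 : Nat.card G = 1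
    · refine ⟨1, one_dvd _, big_one t, ?_, ?_⟩
      · intro q hq hqd
        rw [h1] at hqd
        exact absurd (Nat.dvd_one.mp (by simpa using hqd)) hq.ne_one
      · rw [bigSet_eq_one (X := G) (t := t) (by
          intro q hq hqd
          rw [h1] at hqd
          exact absurd (Nat.dvd_one.mp hqd) hq.ne_one)]
        exact Set.ncard_singleton _
    · have hlt : 1 < Nat.card G := by
        have : 0 < Nat.card G := Nat.card_pos
        omega
      obtain ⟨p, hp, hpd, hmax⟩ := exists_max_prime (Nat.card G) hlt
      haveI : Fact p.Prime := ⟨hp⟩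
      obtain ⟨P⟩ : Nonempty (Sylow p G) := inferInstance
      haveI hPn : (P : Subgroup G).Normal :=
        Cfsg.Agent.H12.sylow_normal_of_supersolvable hG p hmax P
      by_cases htp : t ≤ p
      · have hQ : CT (G ⧸ (P : Subgroup G)) :=
          ih (Nat.card (G ⧸ (P : Subgroup G))) (by rw [← hn]; exact card_quotient_lt hpd P)
            (G ⧸ (P : Subgroup G)) rfl (Cfsg.Agent.H12.isSupersolvable_quotient _ hG)
        obtain ⟨d', hd1, hd2, hd3, hd4⟩ := hQ t
        have hcard := Subgroup.card_eq_card_quotient_mul_card_subgroup (P : Subgroup G)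
        have hPpos : 0 < Nat.card (P : Subgroup G) := Nat.card_pos
        refine ⟨Nat.card (P : Subgroup G) * d', ?_, ?_, ?_, ?_⟩
        · rw [hcard, mul_comm]
          exact Nat.mul_dvd_mul hd1 (dvd_refl _)
        · obtain ⟨k, hk⟩ := P.2.exists_card_eq
          refine big_mul ?_ hd2
          rw [hk]; exact big_prime_pow hp htp
        · intro q hq hqd
          apply hd3 q hq
          rw [hcard, mul_comm, Nat.mul_div_mul_left _ _ hPpos] at hqd
          exact hqd
        · rw [ncard_bigSet_eq (P : Subgroup G) hp P.2 htp, hd4]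
      · push Not at htp
        refine ⟨1, one_dvd _, big_one t, ?_, ?_⟩
        · intro q hq hqd
          rw [Nat.div_one] at hqd
          exact lt_of_le_of_lt (hmax q hq hqd) htp
        · rw [bigSet_eq_one (X := G) (t := t) (fun q hq hqd => lt_of_le_of_lt (hmax q hq hqd) htp)]
          exact Set.ncard_singleton _

/-- The counting property only depends on the order type. -/
theorem ct_of_equiv {G H : Type*} [Group G] [Group H] [Finite G] [Finite H] (e : G ≃ H)
    (he : ∀ g : G, orderOf (e g) = orderOf g) (hG : CT G) : CT H := by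
  intro t
  obtain ⟨d, hd1, hd2, hd3, hd4⟩ := hG t
  have hcard : Nat.card H = Nat.card G := (Nat.card_congr e).symm
  refine ⟨d, by rw [hcard]; exact hd1, hd2, by rw [hcard]; exact hd3, ?_⟩
  have himg : bigSet H t = e '' bigSet G t := by
    ext h
    constructor
    · intro hh
      refine ⟨e.symm h, ?_, by simp⟩
      show Big t (orderOf (e.symm h))
      rw [← he, Equiv.apply_symm_apply]
      exact hh
    · rintro ⟨g, hg, rfl⟩
      show Big t (orderOf (e g))
      rw [he]; exact hg
  rw [himg, Set.ncard_image_of_injective _ e.injective, hd4]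

/-- The counting property forces solvability. -/
theorem solvable_of_ct : ∀ (n : ℕ) (X : Type u) [Group X] [Finite X],
    Nat.card X = n → CT X → Group.IsSolvable X := by
  intro n
  induction n using Nat.strong_induction_on with
  | _ n ih =>
    intro X _ _ hn hX
    by_cases h1 : Nat.card X = 1
    · haveI : Subsingleton X := (Nat.card_eq_one_iff_unique.mp h1).1
      exact Group.isSolvable_of_comm (fun a b => Subsingleton.elim _ _)
    · have hlt : 1 < Nat.card X := by
        have : 0 < Nat.card X := Nat.card_pos
        omega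
      obtain ⟨p, hp, hpd, hmax⟩ := exists_max_prime (Nat.card X) hlt
      haveI : Fact p.Prime := ⟨hp⟩
      -- all Sylow p-subgroups coincide with bigSet X p
      obtain ⟨d, hd1, hd2, hd3, hd4⟩ := hX p
      have hdp : ∀ q : ℕ, q.Prime → q ∣ d → q = p := by
        intro q hq hqd
        exact le_antisymm (hmax q hq (dvd_trans hqd hd1)) (hd2 q hq hqd)
      have hd0 : d ≠ 0 := by
        rintro rfl
        have := Nat.eq_zero_of_zero_dvd hd1
        omega
      have hdpow : d = p ^ d.primeFactorsList.length :=
        Nat.eq_prime_pow_of_unique_prime_dvd hd0 (fun {q} hq hqd => hdp q hq hqd)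
      have key : ∀ Q : Sylow p X, ((Q : Subgroup X) : Set X) = bigSet X p := by
        intro Q
        refine Set.eq_of_subset_of_ncard_le ?_ ?_ (Set.toFinite _)
        · intro g hg
          show Big p (orderOf g)
          obtain ⟨k, hk⟩ := (IsPGroup.iff_orderOf.1 Q.2) ⟨g, hg⟩
          rw [Subgroup.orderOf_mk] at hk
          rw [hk]
          exact big_prime_pow hp le_rfl
        · rw [hd4, ← Nat.card_coe_set_eq]
          show d ≤ Nat.card (Q : Subgroup X)
          rw [Sylow.card_eq_multiplicity Q]
          have hdvd : p ^ d.primeFactorsList.length ∣ Nat.card X := by rw [← hdpow]; exact hd1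
          have hle := (hp.pow_dvd_iff_le_factorization (by omega)).mp hdvd
          rw [hdpow]
          exact Nat.pow_le_pow_right hp.pos hle
      haveI : Subsingleton (Sylow p X) :=
        ⟨fun Q1 Q2 => Sylow.ext (SetLike.coe_injective ((key Q1).trans (key Q2).symm))⟩
      obtain ⟨P⟩ : Nonempty (Sylow p X) := inferInstance
      haveI hPn : (P : Subgroup X).Normal := Sylow.normal_of_subsingleton P
      have hcard := Subgroup.card_eq_card_quotient_mul_card_subgroup (P : Subgroup X)
      have hPpos : 0 < Nat.card (P : Subgroup X) := Nat.card_pos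
      -- the quotient has the counting property
      have hQ : CT (X ⧸ (P : Subgroup X)) := by
        intro t
        by_cases htp : t ≤ p
        · obtain ⟨dt, ht1, ht2, ht3, ht4⟩ := hX t
          have hc := ncard_bigSet_eq (P : Subgroup X) hp P.2 htp
          rw [ht4] at hc
          refine ⟨(bigSet (X ⧸ (P : Subgroup X)) t).ncard, ?_, ?_, ?_, rfl⟩
          · rw [hc, hcard, mul_comm (Nat.card (X ⧸ (P : Subgroup X)))] at ht1
            exact Nat.dvd_of_mul_dvd_mul_left hPpos ht1
          · exact big_of_dvd ht2 (by rw [hc]; exact dvd_mul_left _ _)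
          · intro q hq hqd
            apply ht3 q hq
            rw [hc, hcard, mul_comm (Nat.card (X ⧸ (P : Subgroup X))),
              Nat.mul_div_mul_left _ _ hPpos]
            exact hqd
        · push Not at htp
          have hsm : ∀ q : ℕ, q.Prime → q ∣ Nat.card (X ⧸ (P : Subgroup X)) → q < t := by
            intro q hq hqd
            refine lt_of_le_of_lt (hmax q hq ?_) htp
            rw [hcard]; exact dvd_mul_of_dvd_left hqd _
          refine ⟨1, one_dvd _, big_one t, ?_, ?_⟩
          · intro q hq hqd
            rw [Nat.div_one] at hqd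
            exact hsm q hq hqd
          · rw [bigSet_eq_one (X := X ⧸ (P : Subgroup X)) (t := t) hsm]
            exact Set.ncard_singleton _
      haveI hsolQ : Group.IsSolvable (X ⧸ (P : Subgroup X)) :=
        ih (Nat.card (X ⧸ (P : Subgroup X))) (by rw [← hn]; exact card_quotient_lt hpd P)
          (X ⧸ (P : Subgroup X)) rfl hQ
      haveI hnilP : Group.IsNilpotent (P : Subgroup X) := P.2.isNilpotent
      haveI hsolP : Group.IsSolvable (P : Subgroup X) := inferInstance
      exact solvable_of_ker_le_range (P : Subgroup X).subtype (QuotientGroup.mk' (P : Subgroup X))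
        (by rw [QuotientGroup.ker_mk', Subgroup.range_subtype])

end Cfsg.Agent.H92.SuperOrd
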