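import Cfsg.Agent.H74.TsDefs
import Cfsg.Agent.H14.Thompson

/-!
# Basic facts on `a(T)` (order of a largest elementary abelian 2-subgroup) and `J(T)`
used for the pieces TS-NJ and TS-EQ of S2948.
-/

set_option autoImplicit false
open Cfsg

namespace Cfsg.Agent.H92.Ts

universe u

variable {G : Type u} [Group G]

/-- `a(T)` is the order of any elementary abelian 2-subgroup of `T` of largest order. -/
theorem maxOrder_eq (T : Subgroup G) {A' : Subgroup ↥T}
    (hA' : A' ∈ maxElementaryAbelianSubgroups 2 ↥T) :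
    maxElemAbelianOrder T = Nat.card ↥A' := by
  unfold maxElemAbelianOrder
  have h : (fun A : Subgroup ↥T => Nat.card ↥A) '' maxElementaryAbelianSubgroups 2 ↥T =
      {Nat.card ↥A'} := by
    ext n
    constructor
    · rintro ⟨B, hB, rfl⟩
      exact le_antisymm (hA'.2 B hB.1) (hB.2 A' hA'.1)
    · rintro rfl
      exact ⟨A', hA', rfl⟩
  rw [h, csSup_singleton]

/-- An elementary abelian 2-subgroup of `T` has order at most `a(T)`. -/
theorem card_le_maxOrder [Finite G] (T : Subgroup G) {B : Subgroup G}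
    (hB : IsElementaryAbelian 2 B) (hBT : B ≤ T) :
    Nat.card ↥B ≤ maxElemAbelianOrder T := by
  obtain ⟨A', hA'⟩ := H14.maxElementaryAbelian_nonempty (G := ↥T) 2
  rw [maxOrder_eq T hA']
  have h2 := hA'.2 (B.subgroupOf T) (H14.elemAb_comap' hB T.subtype T.subtype_injective)
  rw [Nat.card_congr (Subgroup.subgroupOfEquivOfLe hBT).toEquiv] at h2
  exact h2

/-- There is an elementary abelian 2-subgroup of order `a(T)` inside `J(T)`. -/
theorem exists_elemAb_le_thompson [Finite G] (T : Subgroup G) :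
    ∃ A : Subgroup G, IsElementaryAbelian 2 A ∧ A ≤ thompsonSubgroupOf 2 T ∧
      Nat.card ↥A = maxElemAbelianOrder T := by
  obtain ⟨A', hA'⟩ := H14.maxElementaryAbelian_nonempty (G := ↥T) 2
  refine ⟨A'.map T.subtype, H14.elemAb_map' hA'.1 _, ?_, ?_⟩
  · unfold thompsonSubgroupOf thompsonSubgroup
    exact Subgroup.map_mono (le_sSup hA')
  · rw [maxOrder_eq T hA', Subgroup.card_subtype]

/-- An elementary abelian 2-subgroup of `T` of order `a(T)` lies in `J(T)`. -/
theorem le_thompson_of_card [Finite G] (T : Subgroup G) {B : Subgroup G}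
    (hB : IsElementaryAbelian 2 B) (hBT : B ≤ T)
    (hc : Nat.card ↥B = maxElemAbelianOrder T) : B ≤ thompsonSubgroupOf 2 T := by
  obtain ⟨A', hA'⟩ := H14.maxElementaryAbelian_nonempty (G := ↥T) 2
  have hmem : B.subgroupOf T ∈ maxElementaryAbelianSubgroups 2 ↥T := by
    refine ⟨H14.elemAb_comap' hB T.subtype T.subtype_injective, ?_⟩
    intro C hC
    rw [Nat.card_congr (Subgroup.subgroupOfEquivOfLe hBT).toEquiv, hc, maxOrder_eq T hA']
    exact hA'.2 C hC
  have h2 : B.subgroupOf T ≤ thompsonSubgroup 2 ↥T := le_sSup hmem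
  have h3 := Subgroup.map_mono (f := T.subtype) h2
  rw [Subgroup.map_subgroupOf_eq_of_le hBT] at h3
  exact h3

/-- `a` is monotone. -/
theorem maxOrder_mono [Finite G] {T T₁ : Subgroup G} (h : T ≤ T₁) :
    maxElemAbelianOrder T ≤ maxElemAbelianOrder T₁ := by
  obtain ⟨A, hA, hAJ, hc⟩ := exists_elemAb_le_thompson T
  rw [← hc]
  exact card_le_maxOrder T₁ hA ((hAJ.trans (H14.thompsonSubgroupOf_le 2 T)).trans h)

/-- If `J(T) ≤ T₂` and `a(T) = a(T₂)` then `J(T) ≤ J(T₂)`. -/
theorem thompson_le_thompson [Finite G] {T T₂ : Subgroup G}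
    (hJ : thompsonSubgroupOf 2 T ≤ T₂)
    (ha : maxElemAbelianOrder T = maxElemAbelianOrder T₂) :
    thompsonSubgroupOf 2 T ≤ thompsonSubgroupOf 2 T₂ := by
  have key : ∀ A' ∈ maxElementaryAbelianSubgroups 2 ↥T,
      A'.map T.subtype ≤ thompsonSubgroupOf 2 T₂ := by
    intro A' hA'
    have hle : A'.map T.subtype ≤ thompsonSubgroupOf 2 T := by
      unfold thompsonSubgroupOf thompsonSubgroup
      exact Subgroup.map_mono (le_sSup hA')
    apply le_thompson_of_card T₂ (H14.elemAb_map' hA'.1 _) (hle.trans hJ)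
    rw [Subgroup.card_subtype, ← ha, maxOrder_eq T hA']
  show (thompsonSubgroup 2 ↥T).map T.subtype ≤ thompsonSubgroupOf 2 T₂
  rw [Subgroup.map_le_iff_le_comap]
  show sSup (maxElementaryAbelianSubgroups 2 ↥T) ≤ _
  apply sSup_le
  intro A' hA'
  rw [← Subgroup.map_le_iff_le_comap]
  exact key A' hA'

/-- `N_G(T) ≤ N_G(J(T))`. -/
theorem normalizer_le_normalizer_thompson (T : Subgroup G) :
    Subgroup.normalizer (T : Set G) ≤ Subgroup.normalizer (thompsonSubgroupOf 2 T : Set G) := by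
  intro g hg
  have hT : T.map (MulAut.conj g).toMonoidHom = T := by
    ext x
    constructor
    · rintro ⟨y, hy, rfl⟩
      exact (Subgroup.mem_normalizer_iff.mp hg y).mp hy
    · intro hx
      refine ⟨g⁻¹ * x * g, ?_, by simp [mul_assoc]⟩
      exact (Subgroup.mem_normalizer_iff.mp hg (g⁻¹ * x * g)).mpr (by simpa [mul_assoc] using hx)
  have hJ := H14.thompsonSubgroupOf_conj 2 g T
  rw [hT] at hJ
  rw [Subgroup.mem_normalizer_iff]
  intro x
  constructor
  · intro hx
    rw [← hJ]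
    exact ⟨x, hx, rfl⟩
  · intro hx
    rw [← hJ] at hx
    obtain ⟨y, hy, hyx⟩ := hx
    have hyx' : y = x := by simpa using hyx
    exact hyx' ▸ hy

/-- A nontrivial 2-group has a nontrivial Thompson subgroup. -/
theorem thompson_ne_bot [Finite G] {T : Subgroup G} (hT2 : IsPGroup 2 ↥T) (hT : T ≠ ⊥) :
    thompsonSubgroupOf 2 T ≠ ⊥ := by
  have : Fact (Nat.Prime 2) := ⟨Nat.prime_two⟩
  have hnt : Nontrivial ↥T := (Subgroup.nontrivial_iff_ne_bot T).mpr hT
  obtain ⟨n, hn⟩ := IsPGroup.iff_card.mp hT2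
  have hn0 : n ≠ 0 := by
    rintro rfl
    rw [pow_zero] at hn
    have h1 := Finite.one_lt_card (α := ↥T)
    omega
  have hdvd : 2 ∣ Nat.card ↥T := by
    rw [hn]
    exact dvd_pow_self 2 hn0
  obtain ⟨x, hx⟩ := exists_prime_orderOf_dvd_card' (G := ↥T) 2 hdvd
  have hxG : orderOf (x : G) = 2 := by
    rw [Subgroup.orderOf_coe]
    exact hx
  have hB : IsElementaryAbelian 2 (Subgroup.zpowers (x : G)) := by
    refine ⟨inferInstance, ?_⟩
    intro a ha
    obtain ⟨k, rfl⟩ := Subgroup.mem_zpowers_iff.mp ha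
    rw [← zpow_natCast, ← zpow_mul, mul_comm, zpow_mul, zpow_natCast, ← hxG, pow_orderOf_eq_one,
      one_zpow]
  have hBT : Subgroup.zpowers (x : G) ≤ T := by
    rw [Subgroup.zpowers_le]
    exact x.2
  have hc : Nat.card ↥(Subgroup.zpowers (x : G)) = 2 := by
    rw [Nat.card_zpowers, hxG]
  have h1 := card_le_maxOrder T hB hBT
  obtain ⟨A, hA, hAJ, hcA⟩ := exists_elemAb_le_thompson T
  intro hbot
  rw [hbot, le_bot_iff] at hAJ
  rw [hAJ, Subgroup.card_bot] at hcA
  omega

/-- Normalizer condition in a finite 2-group `K`, read in `G`: a proper subgroup `H` of `K`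
is normalized by some element of `K` outside `H`. -/
theorem exists_normalizing [Finite G] {H K : Subgroup G} (hK : IsPGroup 2 ↥K) (hHK : H ≤ K)
    (hne : H ≠ K) : ∃ y ∈ K, y ∉ H ∧ y ∈ Subgroup.normalizer (H : Set G) := by
  have : Fact (Nat.Prime 2) := ⟨Nat.prime_two⟩
  have : Group.IsNilpotent ↥K := hK.isNilpotent
  have hlt : H.subgroupOf K < ⊤ := by
    rw [lt_top_iff_ne_top, Ne, Subgroup.subgroupOf_eq_top]
    intro h
    exact hne (le_antisymm hHK h)
  have h1 := Group.normalizerCondition_of_isNilpotent (G := ↥K) (H.subgroupOf K) hlt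
  obtain ⟨y, hyN, hyH⟩ := SetLike.exists_of_lt h1
  refine ⟨(y : G), y.2, ?_, ?_⟩
  · exact fun h => hyH (Subgroup.mem_subgroupOf.mpr h)
  · rw [Subgroup.mem_normalizer_iff]
    intro x
    rw [Subgroup.mem_normalizer_iff] at hyN
    constructor
    · intro hx
      have h2 := (hyN ⟨x, hHK hx⟩).mp (Subgroup.mem_subgroupOf.mpr hx)
      exact Subgroup.mem_subgroupOf.mp h2
    · intro hx
      have hxK : x ∈ K := by
        have h2 : (y : G)⁻¹ * ((y : G) * x * (y : G)⁻¹) * (y : G) ∈ K :=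
          K.mul_mem (K.mul_mem (K.inv_mem y.2) (hHK hx)) y.2
        simpa [mul_assoc] using h2
      have h2 := (hyN ⟨x, hxK⟩).mpr (Subgroup.mem_subgroupOf.mpr hx)
      exact Subgroup.mem_subgroupOf.mp h2

end Cfsg.Agent.H92.Ts
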