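import Cfsg.Agent.H92.TsBase

/-!
# TS-EQ (piece of S2948): a 2-subgroup `T₀ ⊇ J(T)` of a 2-local `L ≰ M` has `J(T₀) = J(T)`
and is straddling
-/

set_option autoImplicit false
open Cfsg

namespace Cfsg.Agent.H92.Ts

universe u

theorem eq : H74.Ts.StEQ.{u} := by
  intro G _ _ M T hT hN L hL hLM T₀ hT₀2 hT₀L hJT₀
  have : Fact (Nat.Prime 2) := ⟨Nat.prime_two⟩
  obtain ⟨⟨hT2, hTne, hTM, -⟩, hmax⟩ := hT
  have hJT₂ : thompsonSubgroupOf 2 T ≤
      T₀ ⊓ Subgroup.normalizer (thompsonSubgroupOf 2 T : Set G) :=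
    le_inf hJT₀ Subgroup.le_normalizer
  have hJne : thompsonSubgroupOf 2 T ≠ ⊥ := thompson_ne_bot hT2 hTne
  have hT₂str : T₀ ⊓ Subgroup.normalizer (thompsonSubgroupOf 2 T : Set G) ∈
      straddlingTwoSubgroups M := by
    refine ⟨hT₀2.to_le inf_le_left, ?_, inf_le_right.trans hN, L, hL,
      inf_le_left.trans hT₀L, hLM⟩
    intro h
    apply hJne
    rw [eq_bot_iff, ← h]
    exact hJT₂
  obtain ⟨h1, h2⟩ := hmax _ hT₂str
  have ha : maxElemAbelianOrder T =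
      maxElemAbelianOrder (T₀ ⊓ Subgroup.normalizer (thompsonSubgroupOf 2 T : Set G)) := by
    refine le_antisymm ?_ h1
    obtain ⟨A, hA, hAJ, hc⟩ := exists_elemAb_le_thompson T
    rw [← hc]
    exact card_le_maxOrder _ hA (hAJ.trans hJT₂)
  obtain ⟨h3, -⟩ := h2 ha.symm
  have hJJ := thompson_le_thompson hJT₂ ha
  have hJeq := Subgroup.eq_of_le_of_card_ge hJJ h3
  have hT₂T₀ : T₀ ⊓ Subgroup.normalizer (thompsonSubgroupOf 2 T : Set G) = T₀ := by
    by_contra hne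
    obtain ⟨y, hyT₀, hyT₂, hyN⟩ := exists_normalizing hT₀2 inf_le_left hne
    apply hyT₂
    refine Subgroup.mem_inf.mpr ⟨hyT₀, ?_⟩
    have h4 := normalizer_le_normalizer_thompson _ hyN
    rw [← hJeq] at h4
    exact h4
  rw [hT₂T₀] at hJeq hT₂str
  exact ⟨hJeq, hT₂str⟩

end Cfsg.Agent.H92.Ts
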