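import Mathlib
import Cfsg.Agent.H1.Zass
import Cfsg.Agent.H7.SL2
import Cfsg.Agent.H28.RegPerf
import Cfsg.Agent.H28.RegProd
import Cfsg.Agent.H92.Aut25

/-!
# S0689: non-solvable linear groups regular on nonzero vectors (helper92)

`H ≤ GL(V)` over `𝔽_p`, regular on `V ∖ 0`, non-solvable.  The perfect core `R` is `SL(2,5)`
(Zassenhaus, S0690, entering as the hypothesis `hZ`); a quaternion pair of `R` gives (`H1.Zass.l1`)
a subspace `W` with `|V| = |W|²` on whose nonzero vectors `C_H(R)` acts freely; `|H : C_H(R)|` is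
`60` or `120` (`|Aut SL(2,5)| ≤ 120`), so `|W| + 1 ∣ 120`, and the arithmetic leaves
`|W| ∈ {11, 29, 59}` with `H = R × C_m`, `m = 1, 7, 29`.
-/

set_option autoImplicit false
universe u

namespace Cfsg.Agent.H92.Zs

open Matrix MatrixGroups

/-! ### facts about `SL(2,5)` -/

theorem fact5 : Fact (Nat.Prime 5) := ⟨by norm_num⟩

theorem card_sl25 : Nat.card SL(2, ZMod 5) = 120 := by
  have := fact5
  rw [Cfsg.Agent.H7.card_SL2, ZMod.card]
  norm_num

/-- an element of order 4 of `SL(2,5)` -/
def qa : SL(2, ZMod 5) := ⟨!![2, 0; 0, 3], by decide⟩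

/-- a second element of order 4 of `SL(2,5)`, inverting `qa` -/
def qb : SL(2, ZMod 5) := ⟨!![0, 1; -1, 0], by decide⟩

/-- a quaternion pair in `SL(2,5)` -/
theorem sl25_quat : ∃ a b : SL(2, ZMod 5), orderOf a = 4 ∧ b * a * b⁻¹ = a⁻¹ ∧ b * b = a ^ 2 := by
  refine ⟨qa, qb, ?_, ?_, ?_⟩
  · have h := orderOf_eq_prime_pow (p := 2) (n := 1) (x := qa) (by decide) (by decide)
    simpa using h
  · decide
  · decide

theorem card_center_sl25 : Nat.card (Subgroup.center SL(2, ZMod 5)) = 2 := by
  have hm1 : (-1 : SL(2, ZMod 5)) ∈ Subgroup.center SL(2, ZMod 5) := by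
    rw [Matrix.SpecialLinearGroup.mem_center_iff]
    refine ⟨-1, by decide, ?_⟩
    decide
  rw [Nat.card_eq_two_iff]
  refine ⟨⟨1, one_mem _⟩, ⟨-1, hm1⟩, ?_, ?_⟩
  · intro h
    have h' : (1 : SL(2, ZMod 5)) = -1 := congrArg Subtype.val h
    revert h'
    decide
  · rw [Set.eq_univ_iff_forall]
    rintro ⟨A, hA⟩
    obtain ⟨r, hr, hrA⟩ := Matrix.SpecialLinearGroup.mem_center_iff.mp hA
    have hr' : r = 1 ∨ r = -1 := by
      have : ∀ r : ZMod 5, r ^ Fintype.card (Fin 2) = 1 → r = 1 ∨ r = -1 := by decide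
      exact this r hr
    rcases hr' with rfl | rfl
    · left
      apply Subtype.ext
      apply Subtype.ext
      rw [← hrA]
      simp
    · right
      apply Subtype.ext
      apply Subtype.ext
      rw [← hrA]
      show (scalar (Fin 2)) (-1 : ZMod 5) = ((-1 : SL(2, ZMod 5)) : Matrix (Fin 2) (Fin 2) (ZMod 5))
      decide

/-! ### the centralizer of a normal `SL(2,5)` -/

theorem ker_conjNormal {H : Type*} [Group H] (R : Subgroup H) [R.Normal] :
    (MulAut.conjNormal : H →* MulAut R).ker = Subgroup.centralizer (R : Set H) := by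
  ext g
  rw [MonoidHom.mem_ker, Subgroup.mem_centralizer_iff]
  constructor
  · intro hg x hx
    have h1 : ((MulAut.conjNormal g : MulAut R) ⟨x, hx⟩ : H) = x := by rw [hg]; rfl
    rw [MulAut.conjNormal_apply] at h1
    calc x * g = g * x * g⁻¹ * g := by rw [h1]
      _ = g * x := by group
  · intro hg
    apply MulEquiv.ext
    rintro ⟨x, hx⟩
    apply Subtype.ext
    rw [MulAut.conjNormal_apply]
    show g * x * g⁻¹ = x
    rw [← hg x hx]
    group

theorem index_centralizer {H : Type*} [Group H] [Finite H] (R : Subgroup H) [R.Normal]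
    (e : R ≃* SL(2, ZMod 5)) :
    (Subgroup.centralizer (R : Set H)).index = 60 ∨
      (Subgroup.centralizer (R : Set H)).index = 120 := by
  classical
  let φ : H →* MulAut R := MulAut.conjNormal
  have hker : φ.ker = Subgroup.centralizer (R : Set H) := ker_conjNormal R
  have hle : Nat.card φ.range ≤ 120 := by
    calc Nat.card φ.range ≤ Nat.card (MulAut R) := Subgroup.card_le_card_group _
      _ = Nat.card (MulAut SL(2, ZMod 5)) := Nat.card_congr (MulAut.congr e).toEquiv
      _ ≤ 120 := card_mulAut_le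
  have hidx : (Subgroup.centralizer (R : Set H)).index = Nat.card φ.range := by
    rw [← hker]
    exact Subgroup.index_ker φ
  let ψ : R →* MulAut R := φ.comp R.subtype
  have hψker : ψ.ker = Subgroup.center R := by
    ext x
    rw [MonoidHom.mem_ker, Subgroup.mem_center_iff]
    constructor
    · intro hx y
      have h1 : ((MulAut.conjNormal (x : H) : MulAut R) y : H) = y := by
        have : (MulAut.conjNormal (x : H) : MulAut R) = 1 := hx
        rw [this]; rfl
      rw [MulAut.conjNormal_apply] at h1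
      apply Subtype.ext
      show (y : H) * x = x * y
      calc (y : H) * x = x * y * (x : H)⁻¹ * x := by rw [h1]
        _ = x * y := by group
    · intro hx
      apply MulEquiv.ext
      intro y
      apply Subtype.ext
      show ((MulAut.conjNormal (x : H) : MulAut R) y : H) = y
      rw [MulAut.conjNormal_apply]
      have h2 : (y : H) * x = x * y := congrArg Subtype.val (hx y)
      rw [← h2]
      group
  have hcenter : Nat.card (Subgroup.center R) = 2 := by
    rw [← card_center_sl25]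
    exact Nat.card_congr (Subgroup.centerCongr e).toEquiv
  have h60 : Nat.card ψ.range = 60 := by
    have h1 := Subgroup.index_ker ψ
    have h2 := Subgroup.card_mul_index ψ.ker
    rw [hψker, hcenter, Nat.card_congr e.toEquiv, card_sl25] at h2
    rw [hψker] at h1
    omega
  have hdvd : 60 ∣ Nat.card φ.range := by
    have hle' : ψ.range ≤ φ.range := by
      rintro _ ⟨x, rfl⟩
      exact ⟨x, rfl⟩
    have := Subgroup.card_dvd_of_le hle'
    rwa [h60] at this
  obtain ⟨k, hk⟩ := hdvd
  have hpos : 0 < Nat.card φ.range := Nat.card_pos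
  rw [hidx]
  omega

/-! ### arithmetic -/

theorem not_pow_119 (p k : ℕ) (hp : p.Prime) (h : p ^ k = 119) : False := by
  have hk : k ≠ 0 := by
    rintro rfl
    simp at h
  have hd : p ∣ 7 * 17 := by
    have : p ∣ p ^ k := dvd_pow_self p hk
    rw [h] at this
    exact this
  rcases (Nat.Prime.dvd_mul hp).mp hd with h7 | h17
  · have hp7 : p = 7 := (Nat.prime_dvd_prime_iff_eq hp (by norm_num)).mp h7
    subst hp7
    have : 17 ∣ 7 ^ k := by rw [h]; norm_num
    have := Nat.Prime.dvd_of_dvd_pow (by norm_num : Nat.Prime 17) this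
    omega
  · have hp17 : p = 17 := (Nat.prime_dvd_prime_iff_eq hp (by norm_num)).mp h17
    subst hp17
    have : 7 ∣ 17 ^ k := by rw [h]; norm_num
    have := Nat.Prime.dvd_of_dvd_pow (by norm_num : Nat.Prime 7) this
    omega

theorem arith (p k q c idx : ℕ) (hp : p.Prime) (hq : q = p ^ k) (hc : c ∣ q - 1)
    (hidx : idx = 60 ∨ idx = 120) (hmul : c * idx = q * q - 1) (h120 : 120 ∣ q * q - 1)
    (hpos : 0 < q * q - 1) (h2 : 2 ∣ c) (h3 : ¬ 3 ∣ c) :
    (q = 11 ∧ c = 2) ∨ (q = 29 ∧ c = 14) ∨ (q = 59 ∧ c = 58) := by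
  have hq2 : 2 ≤ q := by
    by_contra hlt
    have : q ≤ 1 := by omega
    have : q * q ≤ 1 * 1 := Nat.mul_le_mul this this
    omega
  obtain ⟨t, ht⟩ := hc
  have hcpos : 0 < c := by
    rcases Nat.eq_zero_or_pos c with h0 | h0
    · rw [h0, zero_mul] at hmul; omega
    · exact h0
  have hfac : q * q - 1 = (q - 1) * (q + 1) := by
    obtain ⟨j, rfl⟩ : ∃ j, q = j + 1 := ⟨q - 1, by omega⟩
    have : (j + 1) * (j + 1) = (j + 1 - 1) * (j + 1 + 1) + 1 := by
      simp only [Nat.add_sub_cancel]; ring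
    omega
  have hidx' : idx = t * (q + 1) := by
    apply Nat.eq_of_mul_eq_mul_left hcpos
    rw [hmul, hfac, ht]; ring
  have hdvd : q + 1 ∣ 120 := by
    rcases hidx with h | h
    · exact (Dvd.intro_left t (hidx'.symm.trans h)).trans (by norm_num)
    · exact Dvd.intro_left t (hidx'.symm.trans h)
  have hq119 : q + 1 ≤ 120 := Nat.le_of_dvd (by norm_num) hdvd
  have hq119' : q ≤ 119 := by omega
  have hne : q ≠ 119 := fun h => not_pow_119 p k hp (hq.symm.trans h)
  clear ht hfac hq
  rcases hidx with rfl | rfl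
  · interval_cases q <;> omega
  · interval_cases q <;> omega

/-! ### the main theorem -/

theorem s0689_main
    (hZ : ∀ {K : Type u} [Group K] [Finite K] (G : Subgroup (MulAut K)),
      (∀ φ ∈ G, φ ≠ 1 → ∀ k : K, φ k = k → k = 1) → commutator G = ⊤ → G ≠ ⊥ →
      Nonempty (G ≃* Matrix.SpecialLinearGroup (Fin 2) (ZMod 5)))
    {p : ℕ} [Fact p.Prime] {V : Type u} [AddCommGroup V] [Module (ZMod p) V] [Finite V]
    (H : Subgroup (V ≃ₗ[ZMod p] V))
    (hreg : ∀ v w : V, v ≠ 0 → w ≠ 0 → ∃! h : H, (h : V ≃ₗ[ZMod p] V) v = w)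
    (hsolv : ¬ Group.IsSolvable H) :
    (Nat.card V = 121 ∧ Nonempty (H ≃* Matrix.SpecialLinearGroup (Fin 2) (ZMod 5))) ∨
    (Nat.card V = 841 ∧ Nonempty (H ≃* Matrix.SpecialLinearGroup (Fin 2) (ZMod 5) ×
      Multiplicative (ZMod 7))) ∨
    (Nat.card V = 3481 ∧ Nonempty (H ≃* Matrix.SpecialLinearGroup (Fin 2) (ZMod 5) ×
      Multiplicative (ZMod 29))) := by
  classical
  have hp : p.Prime := Fact.out
  have hfinE : Finite (V ≃ₗ[ZMod p] V) :=
    Finite.of_injective (fun e : V ≃ₗ[ZMod p] V => (e : V → V))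
      (fun e f h => by ext v; exact congrFun h v)
  have hnt : Nontrivial V := by
    by_contra hno
    rw [not_nontrivial_iff_subsingleton] at hno
    apply hsolv
    have : Subsingleton H :=
      ⟨fun x y => Subtype.ext (by ext v; exact Subsingleton.elim _ _)⟩
    infer_instance
  obtain ⟨R, hRn, ⟨e⟩⟩ := Cfsg.Agent.H28.Reg.exists_sl25 hZ H hreg hsolv
  have hRcard : Nat.card R = 120 := by rw [Nat.card_congr e.toEquiv, card_sl25]
  -- a quaternion pair in `R`
  obtain ⟨a0, b0, ha0, hab0, hb0⟩ := sl25_quat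
  have ha : orderOf ((e.symm a0 : R) : H) = 4 := by
    rw [Subgroup.orderOf_coe, MulEquiv.orderOf_eq, ha0]
  have hab : ((e.symm b0 : R) : H) * (e.symm a0 : R) * ((e.symm b0 : R) : H)⁻¹
      = ((e.symm a0 : R) : H)⁻¹ := by
    have := congrArg (fun x => ((e.symm x : R) : H)) hab0
    simpa using this
  have hb : ((e.symm b0 : R) : H) * (e.symm b0 : R) = ((e.symm a0 : R) : H) ^ 2 := by
    have := congrArg (fun x => ((e.symm x : R) : H)) hb0
    simpa using this
  obtain ⟨W, hVW, hWinv⟩ := Cfsg.Agent.H1.Zass.l1 H hreg _ _ ha hab hb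
  have hCW : Nat.card (Subgroup.centralizer (R : Set H)) ∣ Nat.card W - 1 := by
    apply Cfsg.Agent.H1.Zass.free_dvd H hreg _ W
    intro d hd v hv
    have hd' := Subgroup.mem_centralizer_iff.mp hd
    exact hWinv d (hd' _ (e.symm a0).2).symm (hd' _ (e.symm b0).2).symm v hv
  have hH : Nat.card H = Nat.card V - 1 := Cfsg.Agent.H1.Zass.card_H H hreg hnt
  have hidx := index_centralizer R e
  have hmul := Subgroup.card_mul_index (Subgroup.centralizer (R : Set H))
  have h120 : 120 ∣ Nat.card H := hRcard ▸ Subgroup.card_subgroup_dvd_card R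
  have hq : Nat.card W = p ^ Module.finrank (ZMod p) W := by
    have h1 := Module.natCard_eq_pow_finrank (K := ZMod p) (V := W)
    rwa [Nat.card_zmod] at h1
  have hcenter : Nat.card (Subgroup.center R) = 2 := by
    rw [← card_center_sl25]
    exact Nat.card_congr (Subgroup.centerCongr e).toEquiv
  have h2C : 2 ∣ Nat.card (Subgroup.centralizer (R : Set H)) := by
    have hle : (Subgroup.center R).map R.subtype ≤ Subgroup.centralizer (R : Set H) := by
      rintro _ ⟨x, hx, rfl⟩
      rw [Subgroup.mem_centralizer_iff]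
      intro y hy
      have := Subgroup.mem_center_iff.mp hx ⟨y, hy⟩
      exact congrArg Subtype.val this
    have h1 := Subgroup.card_dvd_of_le hle
    rwa [Subgroup.card_map_of_injective (Subgroup.subtype_injective R), hcenter] at h1
  have h3C : ¬ 3 ∣ Nat.card (Subgroup.centralizer (R : Set H)) := by
    intro h3
    haveI : Fact (Nat.Prime 3) := ⟨Nat.prime_three⟩
    obtain ⟨u, hu⟩ := exists_prime_orderOf_dvd_card' 3 h3
    have h3R : 3 ∣ Nat.card R := by rw [hRcard]; norm_num
    obtain ⟨c, hc⟩ := exists_prime_orderOf_dvd_card' 3 h3R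
    have hu' : orderOf (u : H) = 3 := by rw [Subgroup.orderOf_coe]; exact hu
    have hc' : orderOf (c : H) = 3 := by rw [Subgroup.orderOf_coe]; exact hc
    have hcomm : (c : H) * (u : H) = (u : H) * (c : H) :=
      Subgroup.mem_centralizer_iff.mp u.2 c c.2
    have hmem := Cfsg.Agent.H1.Zass.uprop H hreg 3 Nat.prime_three (c : H) (u : H) hcomm
      (by rw [← hc']; exact pow_orderOf_eq_one _) (by rw [← hu']; exact pow_orderOf_eq_one _)
      (by intro h1; rw [h1, orderOf_one] at hc'; omega)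
      (by intro h1; rw [h1, orderOf_one] at hu'; omega)
    have hcC : (c : H) ∈ Subgroup.centralizer (R : Set H) :=
      (Subgroup.zpowers_le.mpr u.2) hmem
    have hcZ : c ∈ Subgroup.center R := by
      rw [Subgroup.mem_center_iff]
      intro y
      apply Subtype.ext
      exact Subgroup.mem_centralizer_iff.mp hcC y y.2
    have hdvd : orderOf (⟨c, hcZ⟩ : Subgroup.center R) ∣ 2 := hcenter ▸ orderOf_dvd_natCard _
    have hoc : orderOf (⟨c, hcZ⟩ : Subgroup.center R) = 3 := by
      rw [← Subgroup.orderOf_coe]; exact hc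
    rw [hoc] at hdvd
    omega
  have hVq : Nat.card V = Nat.card W * Nat.card W := hVW
  have hmul' : Nat.card (Subgroup.centralizer (R : Set H)) *
      (Subgroup.centralizer (R : Set H)).index = Nat.card W * Nat.card W - 1 := by
    rw [hmul, hH, hVq]
  have hpos : 0 < Nat.card W * Nat.card W - 1 := by
    rw [← hVq, ← hH]; exact Nat.card_pos
  have h120' : 120 ∣ Nat.card W * Nat.card W - 1 := by
    rw [← hVq, ← hH]; exact h120
  rcases arith p _ (Nat.card W) _ _ hp hq hCW hidx hmul' h120' hpos h2C h3C with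
    ⟨hq11, hc⟩ | ⟨hq29, hc⟩ | ⟨hq59, hc⟩
  · left
    refine ⟨by rw [hVq, hq11], ?_⟩
    have hHcard : Nat.card H = 120 := by rw [hH, hVq, hq11]
    have hRtop : R = ⊤ := (Subgroup.card_eq_iff_eq_top R).mp (hRcard.trans hHcard.symm)
    exact ⟨(Subgroup.topEquiv.symm.trans (MulEquiv.subgroupCongr hRtop.symm)).trans e⟩
  · right; left
    refine ⟨by rw [hVq, hq29], ?_⟩
    have hHcard : Nat.card H = 840 := by rw [hH, hVq, hq29]
    haveI : Fact (Nat.Prime 7) := ⟨by norm_num⟩
    obtain ⟨m, hm⟩ := exists_prime_orderOf_dvd_card' 7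
      (by rw [hc]; norm_num : 7 ∣ Nat.card (Subgroup.centralizer (R : Set H)))
    have hm' : orderOf (m : H) = 7 := by rw [Subgroup.orderOf_coe]; exact hm
    obtain ⟨f⟩ := Cfsg.Agent.H28.Reg.prod_of_central_prime R (m : H) 7 hm'
      (fun x hx => (Subgroup.mem_centralizer_iff.mp m.2 x hx).symm)
      (by rw [hRcard]; norm_num) (by rw [hHcard, hRcard])
    exact ⟨f.trans (MulEquiv.prodCongr e (MulEquiv.refl _))⟩
  · right; right
    refine ⟨by rw [hVq, hq59], ?_⟩
    have hHcard : Nat.card H = 3480 := by rw [hH, hVq, hq59]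
    haveI : Fact (Nat.Prime 29) := ⟨by norm_num⟩
    obtain ⟨m, hm⟩ := exists_prime_orderOf_dvd_card' 29
      (by rw [hc]; norm_num : 29 ∣ Nat.card (Subgroup.centralizer (R : Set H)))
    have hm' : orderOf (m : H) = 29 := by rw [Subgroup.orderOf_coe]; exact hm
    obtain ⟨f⟩ := Cfsg.Agent.H28.Reg.prod_of_central_prime R (m : H) 29 hm'
      (fun x hx => (Subgroup.mem_centralizer_iff.mp m.2 x hx).symm)
      (by rw [hRcard]; norm_num) (by rw [hHcard, hRcard])
    exact ⟨f.trans (MulEquiv.prodCongr e (MulEquiv.refl _))⟩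

end Cfsg.Agent.H92.Zs
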